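import Mathlib
import Cfsg.Agent.Gl23.U35

/-!
The minimal index of `PSU₃(5)`.
-/

set_option autoImplicit false

namespace Cfsg.Agent.Gl23

open Cfsg Cfsg.Agent.Classical.SmallFields Matrix Subgroup Cfsg.Agent.Herm

theorem U3.mul_dvd {G : Type*} [Group G] [Finite G] {K H : Subgroup G} (hK : K ≤ H) {x : G} (hx : x ∈ H)
    (hn : ∀ y ∈ K, x * y * x⁻¹ ∈ K) {p : ℕ} (hp : p.Prime) (h1 : x ^ p ∈ K) (h2 : x ∉ K) :
    Nat.card K * p ∣ Nat.card H := by
  have hx' : x ∈ H ⊓ normalizer (K : Set G) := ⟨hx, mem_normalizer_fintype hn⟩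
  have hle : K ≤ H ⊓ normalizer (K : Set G) := le_inf hK le_normalizer
  haveI := normal_subgroupOf_of_le_normalizer (H := H ⊓ normalizer (K : Set G)) (N := K) inf_le_right
  refine dvd_trans ?_ (card_dvd_of_le (inf_le_left (b := normalizer (K : Set G))))
  rw [← (K.subgroupOf (H ⊓ normalizer (K : Set G))).card_mul_index,
    Nat.card_congr (subgroupOfEquivOfLe hle).toEquiv]
  refine Nat.mul_dvd_mul_left _ ?_
  haveI := Fact.mk hp
  rw [← orderOf_eq_prime (p := p) (x := (QuotientGroup.mk ⟨x, hx'⟩ : _ ⧸ K.subgroupOf (H ⊓ normalizer (K : Set G))))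
    (by rw [← QuotientGroup.mk_pow, QuotientGroup.eq_one_iff]; exact h1)
    (by rw [Ne, QuotientGroup.eq_one_iff]; exact h2)]
  exact orderOf_dvd_natCard _

theorem U3.psu_low {F : Type*} [Field F] [Finite F] {q : ℕ} (hF : Nat.card F = q ^ 2) {b : ℕ}
    (h1 : ∀ H : Subgroup (SUG (sB hF 3)), center _ ≤ H → H ≠ ⊤ → b ≤ H.index) (H : Subgroup (PSU 3 F q))
    (hH : H ≠ ⊤) : b ≤ H.index := by
  have hπ : Function.Surjective ((QuotientGroup.mk' (center (SU 3 F q))).comp (toSUG hF 3).symm.toMonoidHom) :=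
    (QuotientGroup.mk'_surjective _).comp (toSUG hF 3).symm.surjective
  rw [← index_comap_of_surjective H hπ]
  refine h1 _ (fun g hg => ?_) fun e => hH ?_
  · have : (toSUG hF 3).symm g ∈ center (SU 3 F q) := (Classical.SpMat.mem_center_congr (toSUG hF 3).symm).2 hg
    exact mem_comap.2 (((QuotientGroup.eq_one_iff _).2 this).symm ▸ one_mem H :
      (QuotientGroup.mk ((toSUG hF 3).symm g) : PSU 3 F q) ∈ H)
  · rw [← map_comap_eq_self_of_surjective hπ H, e, map_top_of_surjective _ hπ]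

namespace U35

theorem cardG : Nat.card G = 378000 := by
  have h2 : (5 + 1) * Nat.card G = 6 * 378000 := (S0278.result cardK 3 (by norm_num)).trans (by decide +kernel)
  omega

theorem z_cen : z ∈ center G := mem_center_iff.2 fun g => Subtype.ext (Subtype.ext (by
  change g.1.1 * (e 12 • 1) = (e 12 • 1) * g.1.1
  simp))

theorem card_H : 7560 ∣ Nat.card H := by
  obtain ⟨r1, r2, r3, r4, r5, r6, r7, r8, r9, r10, r11, r12⟩ := rels
  haveI : Fact (Nat.Prime 7) := ⟨by norm_num⟩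
  have hz : z = c * x * c⁻¹ * x⁻¹ := by rw [r3]; group
  have hzH : z ∈ H := hz ▸ mul_mem (mul_mem (mul_mem c_mem x_mem) (inv_mem c_mem)) (inv_mem x_mem)
  have h7 : 7 ∣ Nat.card H := orderOf_eq_prime pows.1 pows.2.1 ▸ H.orderOf_dvd_natCard g_mem
  have hk : k ∈ H := by rw [r2]; exact mul_mem g_mem c_mem
  have h5 : 5 ∣ Nat.card H := (orderOf_eq_prime pows.2.2.1 pows.2.2.2).symm.dvd.trans (H.orderOf_dvd_natCard hk)
  have oa : orderOf a = 2 ^ (1 + 1) := orderOf_eq_prime_pow (by rwa [pow_one, sq]) (by rw [← r10]; norm_num [pow_succ, mul_assoc])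
  have h8 := U3.mul_dvd (K := zpowers a) (zpowers_le.2 a_mem)
    (r1 ▸ mul_mem (mul_mem c_mem (mul_mem a_mem a_mem)) (mul_mem c_mem c_mem) : b ∈ H) (by
      rintro _ ⟨n, rfl⟩
      rw [← conj_zpow, inv_eq_of_mul_eq_one_right r5, r4]
      exact zpow_mem (mul_mem (mem_zpowers a) (mul_mem (mem_zpowers a) (mem_zpowers a))) n) Nat.prime_two
    (by rw [sq, r5]; exact one_mem _) (fun h => by
      obtain ⟨i, hi, e⟩ := Finset.mem_image.1 (mem_zpowers_iff_mem_range_orderOf.1 h)
      exact nots.1 i (by simpa [oa] using hi) e.symm)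
  have oz : orderOf z = 3 := orderOf_eq_prime (by rw [← r8, pow_three]) r9
  have h9 := U3.mul_dvd (K := zpowers z) (H := H ⊓ centralizer {x}) (x := x)
    (zpowers_le.2 ⟨hzH, center_le_centralizer _ z_cen⟩) ⟨x_mem, mem_centralizer_singleton_iff.2 rfl⟩ (by
      rintro _ ⟨n, rfl⟩
      rw [mem_center_iff.1 (zpow_mem z_cen n) x, mul_inv_cancel_right]
      exact ⟨n, rfl⟩) Nat.prime_three (by rw [pow_three, r7]; exact one_mem _) (fun h => by
      obtain ⟨i, hi, e⟩ := Finset.mem_image.1 (mem_zpowers_iff_mem_range_orderOf.1 h)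
      exact nots.2 i (by simpa [oz] using hi) e.symm)
  have h27 := U3.mul_dvd (K := H ⊓ centralizer {x}) inf_le_left c_mem (fun w hw => ⟨H.mul_mem (H.mul_mem c_mem hw.1)
    (H.inv_mem c_mem), mem_centralizer_singleton_iff.2 (by
      have h1 := mem_centralizer_singleton_iff.1 hw.2
      have h2 : x = z⁻¹ * (c * x * c⁻¹) := by rw [r3]; group
      have h3 := mem_center_iff.1 (inv_mem z_cen) (c * w * c⁻¹)
      rw [h2, ← mul_assoc, h3, mul_assoc z⁻¹, mul_assoc z⁻¹, conj_mul, conj_mul, h1])⟩) Nat.prime_three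
    (by rw [pow_three, r6]; exact one_mem _) fun h => r12 (mem_centralizer_singleton_iff.1 h.2)
  rw [Nat.card_zpowers, oa] at h8
  rw [Nat.card_zpowers, oz] at h9
  have h27' : 27 ∣ Nat.card H := (Nat.mul_dvd_mul_right h9 3).trans h27
  exact Nat.Coprime.mul_dvd_of_dvd_of_dvd (m := 8 * 27) (n := 5 * 7) (by norm_num)
    (Nat.Coprime.mul_dvd_of_dvd_of_dvd (by norm_num) h8 h27') (Nat.Coprime.mul_dvd_of_dvd_of_dvd (by norm_num) h5 h7)

theorem exists_fifty : ∃ K : Subgroup (PSU 3 F25 5), K ≠ ⊤ ∧ K.index ≤ 50 := by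
  have h1 : center G ≤ H := by
    have oz : orderOf z = 3 := orderOf_eq_prime (by rw [← rels.2.2.2.2.2.2.2.1, pow_three]) rels.2.2.2.2.2.2.2.2.1
    rw [← eq_of_le_of_card_ge (zpowers_le.2 z_cen) (by rw [S0279.result cardK 3 le_rfl, Nat.card_zpowers, oz]; rfl),
      zpowers_le, show z = c * x * c⁻¹ * x⁻¹ by rw [rels.2.2.1]; group]
    exact mul_mem (mul_mem (mul_mem c_mem x_mem) (inv_mem c_mem)) (inv_mem x_mem)
  have h2 := index_map_eq H (QuotientGroup.mk'_surjective (center G)) (by rwa [QuotientGroup.ker_mk'])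
  refine ⟨H.map (QuotientGroup.mk' _), fun h => y_mem ?_, ?_⟩
  · rw [h, index_top, eq_comm, index_eq_one] at h2
    exact h2 ▸ mem_top y
  · have h3 := H.card_mul_index
    have h4 := Nat.le_of_dvd Nat.card_pos card_H
    rw [cardG] at h3
    rw [h2]
    nlinarith

theorem su_map {K F : Type*} [Field K] [Field F] (e : K ≃+* F) {n q : ℕ}
    {g : Matrix.SpecialLinearGroup (Fin n) K} (hg : g ∈ SU n K q) :
    Matrix.SpecialLinearGroup.map e.toRingHom g ∈ SU n F q := by
  intro u v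
  have := congrArg e (hg (fun i => e.symm (u i)) (fun i => e.symm (v i)))
  simpa [hermForm, Matrix.mulVec, dotProduct, map_sum] using this

/-- Transport of `PSU` along a field isomorphism. -/
def psuE {K F : Type*} [Field K] [Field F] (e : K ≃+* F) (n q : ℕ) : PSU n K q ≃* PSU n F q :=
  Classical.Congr.centerQuotCongr (MonoidHom.toMulEquiv
    (((Matrix.SpecialLinearGroup.map e.toRingHom).comp (SU n K q).subtype).codRestrict _ fun g => su_map e g.2)
    (((Matrix.SpecialLinearGroup.map e.symm.toRingHom).comp (SU n F q).subtype).codRestrict _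
      fun g => su_map e.symm g.2) (by ext; simp) (by ext; simp))

theorem main {F : Type*} [Field F] [Fintype F] (hF : Fintype.card F = 25) :
    (∀ H : Subgroup (Cfsg.PSU 3 F 5), H ≠ ⊤ → 50 ≤ H.index) ∧ (∃ H : Subgroup (Cfsg.PSU 3 F 5), H.index = 50) := by
  have hF' : Nat.card F = 5 ^ 2 := by rw [Nat.card_eq_fintype_card, hF]; rfl
  have h1 := U3.psu_low hF' fun H _ hH => U3.five hF' (by simp) (hf_sB hF' 3) hH
  obtain ⟨K, h2, h3⟩ := exists_fifty
  obtain ⟨e⟩ := equiv_F25 hF'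
  have h4 := K.index_map_equiv (psuE e 3 5)
  generalize K.map (psuE e 3 5 : PSU 3 F25 5 →* PSU 3 F 5) = K' at h4
  refine ⟨h1, K', le_antisymm (h4.trans_le h3) (h1 K' fun h => h2 ?_)⟩
  rwa [h, index_top, eq_comm, index_eq_one] at h4

end U35

end Cfsg.Agent.Gl23
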