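import Mathlib
import Cfsg.Agent.Gl23.UB
import Cfsg.Agent.Classical.Dickson

/-!
The point stabiliser of a subgroup of `SU₃(q)`.
-/

set_option autoImplicit false
set_option linter.unusedSectionVars false

namespace Cfsg.Agent.Gl23.U3

open Module Cfsg.Agent.Herm MulAction

variable {F V : Type*} [Field F] [AddCommGroup V] [Module F V] [FiniteDimensional F V]
  {σ : F →+* F} {B : V →ₛₗ[σ] V →ₗ[F] F} [Finite F] {q : ℕ}

theorem card_dvd_of_pow {T : Subgroup Fˣ} {m : ℕ} (h : ∀ a ∈ T, (a : F) ^ m = 1) : Nat.card T ∣ m := by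
  rw [← IsCyclic.exponent_eq_card]
  exact Monoid.exponent_dvd_of_forall_pow_eq_one fun a => Subtype.ext (Units.ext (by simpa using h a a.2))

theorem card_dvd_sub {S : Subgroup Fˣ} {A : AddSubgroup F} (h : ∀ s ∈ S, ∀ x ∈ A, (s : F) * x ∈ A) :
    Nat.card S ∣ Nat.card A - 1 := by
  classical
  have h1 := Classical.P1Count.card_dvd_of_semiregular S ((Set.toFinite (A : Set F)).toFinset.erase 0)
    (fun c hc x hx => by
      simp only [Finset.mem_erase, Set.Finite.mem_toFinset, SetLike.mem_coe] at hx ⊢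
      exact ⟨mul_ne_zero c.ne_zero hx.1, h c hc x hx.2⟩)
    (fun c _ x hx e => Units.ext ((mul_eq_right₀ (Finset.mem_erase.1 hx).1).1 e))
  rwa [Finset.card_erase_of_mem (by simp), ← Set.ncard_eq_toFinset_card, ← Nat.card_coe_set_eq] at h1

/-- the norm -/
def nrm (σ : F →+* F) : Fˣ →* Fˣ := MonoidHom.mk' (fun a => Units.map (σ : F →* F) a * a) fun a b => by
  rw [map_mul, mul_mul_mul_comm]

/-- the action on the Heisenberg quotient -/
def lam (σ : F →+* F) : Fˣ →* Fˣ := MonoidHom.mk' (fun a => Units.map (σ : F →* F) a ^ 2 / a) fun a b => by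
  rw [map_mul, mul_pow, mul_div_mul_comm]

@[simp] theorem nrm_val (a : Fˣ) : (nrm σ a : F) = σ a * a := rfl
@[simp] theorem lam_val (a : Fˣ) : (lam σ a : F) = σ a ^ 2 / a := by simp [lam]

/-- the skew elements -/
def skS (σ : F →+* F) : AddSubgroup F where
  carrier := {l | l + σ l = 0}
  add_mem' {a b} ha hb := by simp only [Set.mem_ofPred_eq, map_add] at *; linear_combination ha + hb
  zero_mem' := by simp
  neg_mem' {a} ha := by simp only [Set.mem_ofPred_eq, map_neg] at *; linear_combination -ha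

section
variable {h : Inv σ} (P : Subgroup (Heis h))

/-- the image in the Heisenberg quotient -/
def Ag : AddSubgroup F where
  carrier := {a | ∃ x ∈ P, x.a = a}
  add_mem' := by rintro _ _ ⟨x, hx, rfl⟩ ⟨y, hy, rfl⟩; exact ⟨x * y, mul_mem hx hy, rfl⟩
  zero_mem' := ⟨1, one_mem _, rfl⟩
  neg_mem' := by rintro _ ⟨x, hx, rfl⟩; exact ⟨x⁻¹, inv_mem hx, rfl⟩

/-- the central part -/
def Rg : AddSubgroup F where
  carrier := {l | ∃ x ∈ P, x.a = 0 ∧ x.l = l}
  add_mem' := by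
    rintro _ _ ⟨x, hx, h1, rfl⟩ ⟨y, hy, h2, rfl⟩; exact ⟨x * y, mul_mem hx hy, by simp [h1, h2], by simp [h2]⟩
  zero_mem' := ⟨1, one_mem _, rfl, rfl⟩
  neg_mem' := by
    rintro _ ⟨x, hx, h1, rfl⟩
    exact ⟨x⁻¹, inv_mem hx, by simp [h1], by have := x.prop; rw [h1] at this; rw [Heis.inv_l]; linear_combination this⟩

theorem card_P : Nat.card P = Nat.card (Ag P) * Nat.card (Rg P) := by
  rw [← card_inf_ker (Heis.proj h) P]
  congr 1
  exact Nat.card_eq_of_bijective (fun x => ⟨x.1.l, x.1, x.2.1, x.2.2, rfl⟩)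
    ⟨fun x y e => Subtype.ext (Heis.ext (x.2.2.trans y.2.2.symm) (congrArg Subtype.val e)),
      by rintro ⟨_, x, h1, h2, rfl⟩; exact ⟨⟨x, h1, h2⟩, rfl⟩⟩

theorem R_le : Rg P ≤ skS σ := by
  rintro _ ⟨x, -, h1, rfl⟩
  exact x.prop.trans (by rw [h1, mul_zero])

variable {P} in
theorem comm_mem {a b : F} (ha : a ∈ Ag P) (hb : b ∈ Ag P) : σ a * b - σ b * a ∈ Rg P := by
  obtain ⟨x, hx, rfl⟩ := ha
  obtain ⟨y, hy, rfl⟩ := hb
  exact ⟨x * y * x⁻¹ * y⁻¹, mul_mem (mul_mem (mul_mem hx hy) (inv_mem hx)) (inv_mem hy), Heis.commutator_a x y,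
    Heis.commutator_l x y⟩

theorem card_skS (hF : Nat.card F = q ^ 2) (h : Inv σ) : Nat.card (skS σ) = q := h.card_skew.trans (h.card_fixF hF)

theorem A_le (hF : Nat.card F = q ^ 2) {t : F} (ht : t + σ t = 0) (ht' : t ∉ Rg P) : Nat.card (Ag P) ≤ q := by
  obtain ⟨ψ, hψ⟩ := (AddChar.exists_apply_ne_zero (a := (t : F ⧸ Rg P))).2
    (mt (QuotientAddGroup.eq_zero_iff t).1 ht')
  let b : F →+ F →+ F := AddMonoidHom.mk' (fun a => AddMonoidHom.mk' (fun w => σ a * w - σ w * a)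
    fun _ _ => by rw [map_add]; ring) fun _ _ => AddMonoidHom.ext fun _ => by simp; ring
  have := MinI.card_sq_le b (ψ.compAddMonoidHom (QuotientAddGroup.mk' (Rg P))) (fun a ha => by
    obtain ⟨c, hc⟩ := h.exists_sub ht
    have ha' : σ a ≠ 0 := (map_ne_zero σ).2 ha
    refine ⟨c / σ a, ?_⟩
    have : b a (c / σ a) = t := by
      change σ a * (c / σ a) - σ (c / σ a) * a = t
      rw [map_div₀, h.invol, ← hc]; field_simp
    rwa [this]) (A := Ag P) fun x hx y hy => by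
      change ψ ((σ x * y - σ y * x : F) : F ⧸ Rg P) = 1
      rw [(QuotientAddGroup.eq_zero_iff _).2 (comm_mem hx hy), AddChar.map_zero_eq_one]
  rw [hF, sq] at this
  exact Nat.mul_self_le_mul_self_iff.1 this

end

variable (hB : HF B) (hF : Nat.card F = q ^ 2) (hn : finrank F V = 3) (r : Fr B) {H : Subgroup (SUG B)}

include hn in
theorem A_inv {a : Fˣ} (ha : a ∈ Tg H r.u) {x : F} (hx : x ∈ Ag (H.comap (r.hs hB))) :
    σ a ^ 2 / a * x ∈ Ag (H.comap (r.hs hB)) := by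
  obtain ⟨g, hg, h⟩ := ha
  obtain ⟨x, hx, rfl⟩ := hx
  obtain ⟨y, h1, h2, -⟩ := r.conj_hs hB hn h x
  exact ⟨y, show r.hs hB y ∈ H from h1 ▸ mul_mem (mul_mem hg hx) (inv_mem hg), h2⟩

include hF hn in
theorem R_ne (hq : q ≠ 2) (h : Tr H) (hH : H ≠ ⊤) : ∃ t, t + σ t = 0 ∧ t ∉ Rg (H.comap (r.hs hB)) := by
  by_contra! h1
  refine hH (eq_top_iff.2 fun g _ => ?_)
  have h2 : hB.tvGroup ≤ H.map (SUG B).subtype := (Subgroup.closure_le _).2 (by
    rintro _ ⟨v, c, hv, rfl⟩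
    by_cases hc : c + σ c = 0
    swap
    · rw [hB.qr_of_not (by simpa [hv] using hc)]; exact one_mem _
    by_cases v0 : v = 0
    · rw [show hB.qr v c = 1 from UG.ext fun x => by rw [hB.tv_apply hv hc]; simp [v0]]; exact one_mem _
    obtain ⟨k, hk, d, e⟩ := h v r.u v0 hv r.u_ne r.uu
    have hd : d ≠ 0 := left_ne_zero_of_smul (e ▸ g_ne k v0)
    obtain ⟨x, hx, h3, h4⟩ := h1 (-(d * σ d * c)) (by
      simp only [map_neg, map_mul, hB.invol]; linear_combination -(d * σ d) * hc)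
    refine ⟨k⁻¹ * r.hs hB x * k, mul_mem (mul_mem (inv_mem hk) hx) hk, ?_⟩
    have h5 := hB.qr_conj k.1 v c
    rw [show k.1.1 v = d • r.u from e, hB.qr_smul _ _ _ hd, hB.tv_eq_eich r.uu, ← h4] at h5
    change k.1⁻¹ * hB.eich r.u (x.a • r.w) x.l * k.1 = _
    rw [h3, zero_smul, ← h5]; group)
  rw [hB.tvGroup_eq hF (by omega) (by omega)] at h2
  obtain ⟨k, hk, e⟩ := h2 g.2
  rwa [← show k = g from Subtype.ext e]

include hB in
theorem lam_ker (T : Subgroup Fˣ) : Nat.card (T ⊓ (lam σ).ker : Subgroup Fˣ) ∣ 3 ∧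
    ∀ a ∈ T ⊓ (lam σ).ker, σ a * a = 1 := by
  have key : ∀ a ∈ T ⊓ (lam σ).ker, (a : F) ^ 3 = 1 ∧ σ a * a = 1 := fun a ha => by
    have h1 : σ a ^ 2 = a := by
      have := congrArg Units.val (show lam σ a = 1 from ha.2)
      rwa [lam_val, Units.val_one, div_eq_one_iff_eq a.ne_zero] at this
    have h2 : (a : F) ^ 2 = σ a := by simpa [hB.invol] using congrArg σ h1
    have h3 : (a : F) ^ 3 = 1 := mul_left_cancel₀ a.ne_zero (by rw [← h2] at h1; linear_combination h1)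
    exact ⟨h3, by rw [← h2, ← h3]; ring⟩
  exact ⟨card_dvd_of_pow fun a ha => (key a ha).1, fun a ha => (key a ha).2⟩

include hB hF in
theorem card_dvd_succ {T : Subgroup Fˣ} (h : ∀ a ∈ T, σ a * a = 1) : Nat.card T ∣ q + 1 :=
  card_dvd_of_pow fun a ha => by rw [pow_succ, ← hB.toInv.apply_pow hF, h a ha]

include hF hn in
/-- the numerical data of a point stabiliser -/
theorem T_data : ∃ t d, Nat.card (Tg H r.u) = t * d ∧ d ∣ 3 ∧ d ∣ q + 1 ∧
    t ∣ Nat.card (Ag (H.comap (r.hs hB))) - 1 ∧ Nat.card ((Tg H r.u).map (nrm σ)) ∣ t := by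
  refine ⟨_, _, (card_inf_ker (lam σ) _).symm, (lam_ker hB _).1, card_dvd_succ hB hF (lam_ker hB _).2,
    card_dvd_sub ?_, ?_⟩
  · rintro _ ⟨a, ha, rfl⟩ x hx
    exact lam_val (σ := σ) a ▸ A_inv hB hn r ha hx
  · rw [show nrm σ = (nrm σ).comp (lam σ) from MonoidHom.ext fun a => Units.ext (by
      simp [hB.invol]; field_simp), ← Subgroup.map_map]
    exact Subgroup.card_map_dvd _ _

include hF hn in
theorem R_bot (hR : Rg (H.comap (r.hs hB)) = ⊥) (hA : Ag (H.comap (r.hs hB)) ≠ ⊥) :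
    Nat.card (Tg H r.u) ∣ 3 * (q - 1) ∧ ∀ a ∈ Tg H r.u, σ a * a = 1 → (a : F) ^ 6 = 1 := by
  obtain ⟨⟨x, hx⟩, x0⟩ := AddSubgroup.ne_bot_iff_exists_ne_zero.1 hA
  have x0 : x ≠ 0 := fun e => x0 (Subtype.ext e)
  have x1 : σ x ≠ 0 := (map_ne_zero σ).2 x0
  have key : ∀ a ∈ Tg H r.u, σ a ^ 3 = (a : F) ^ 3 := fun a ha => by
    have := comm_mem hx (A_inv hB hn r ha hx)
    have h0 := a.ne_zero
    have h1 : σ a ≠ 0 := (map_ne_zero σ).2 h0
    rw [hR, AddSubgroup.mem_bot, map_mul, map_div₀, map_pow, hB.invol] at this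
    field_simp at this
    exact mul_left_cancel₀ (mul_ne_zero x1 x0) (by linear_combination this)
  refine ⟨card_dvd_of_pow fun a ha => ?_, fun a ha h => ?_⟩
  · have := key a ha
    have h2 := two_le_of_card hF
    rw [hB.toInv.apply_pow hF, ← pow_mul, show q * 3 = 3 * (q - 1) + 3 by omega, pow_add] at this
    exact (mul_eq_right₀ (pow_ne_zero 3 a.ne_zero)).1 this
  · linear_combination (-(a : F) ^ 3) * key a ha + ((σ a * a) ^ 2 + σ a * a + 1) * h

include hF in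
theorem T_dvd (T : Subgroup Fˣ) : Nat.card T ∣ q ^ 2 - 1 := by
  rw [← hF, ← Nat.card_units]; exact Subgroup.card_subgroup_dvd_card _

include hF in
theorem R_card {t : F} (ht : t + σ t = 0) (ht' : t ∉ Rg (H.comap (r.hs hB))) :
    Nat.card (Rg (H.comap (r.hs hB))) ∣ q ∧ Nat.card (Rg (H.comap (r.hs hB))) < q := by
  have h1 := AddSubgroup.card_dvd_of_le (R_le (H.comap (r.hs hB)))
  rw [card_skS hF hB.toInv] at h1
  refine ⟨h1, lt_of_le_of_ne (Nat.le_of_dvd (by have := two_le_of_card hF; omega) h1) fun e => ht' ?_⟩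
  rwa [AddSubgroup.eq_of_le_of_card_ge (R_le _) (by rw [card_skS hF hB.toInv, e])]

theorem five (hF : Nat.card F = 5 ^ 2) (hn : finrank F V = 3) (hB : HF B) {H : Subgroup (SUG B)} (hH : H ≠ ⊤) :
    50 ≤ H.index := by
  by_contra! h
  have h1 := tr_of_index hB hF hn (H := H) (by omega)
  obtain ⟨u, w, f, a1, a2, a3, a4, a5, a6⟩ := hB.exists_frame_three hn.ge
  let r : Fr B := ⟨u, w, f, a1, a2, a3, a4, a5, a6⟩
  obtain ⟨t, ht, ht'⟩ := R_ne hB hF hn r (by norm_num) h1 hH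
  obtain ⟨h2, h3⟩ := R_card hB hF r ht ht'
  have h4 := ((Nat.dvd_prime Nat.prime_five).1 h2).resolve_right h3.ne
  have h5 := (r.card_tr hB hF hn h1).2
  rw [card_P, h4, mul_one] at h5
  have h6 := A_le _ hF ht ht'
  by_cases hA : Ag (H.comap (r.hs hB)) = ⊥
  · have := Nat.le_of_dvd (by norm_num) (T_dvd hF (Tg H r.u))
    rw [hA, AddSubgroup.card_bot, one_mul] at h5
    have h7 : Nat.card (Tg H r.u) * H.index ≤ 24 * 49 := Nat.mul_le_mul this (by omega)
    omega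
  · have := Nat.le_of_dvd (by norm_num) (R_bot hB hF hn r (AddSubgroup.card_eq_one.1 h4) hA).1
    have h7 : Nat.card (Ag (H.comap (r.hs hB))) * Nat.card (Tg H r.u) * H.index ≤ 5 * 12 * 49 := by
      gcongr; omega
    omega

end Cfsg.Agent.Gl23.U3
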