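import Mathlib
import Cfsg.Agent.Gl23.UC
import Cfsg.Agent.Inv.Pairs

/-!
Involutions of `SU₃(q)` and elements of the anisotropic torus.
-/

set_option autoImplicit false
set_option linter.unusedSectionVars false

namespace Cfsg.Agent.Gl23.U3

open Module Cfsg.Agent.Herm MulAction

variable {F V : Type*} [Field F] [AddCommGroup V] [Module F V] [FiniteDimensional F V]
  {σ : F →+* F} {B : V →ₛₗ[σ] V →ₗ[F] F} [Finite F] {q : ℕ}

/-- the map `j - ε` -/
noncomputable def Mg (j : SUG B) (ε : F) : V →ₗ[F] V := (j.1.1 : V →ₗ[F] V) - ε • LinearMap.id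

theorem Mg_apply (j : SUG B) (ε : F) (x : V) : Mg j ε x = j • x - ε • x := rfl

theorem mem_Mg {j : SUG B} {ε : F} {x : V} : x ∈ LinearMap.ker (Mg j ε) ↔ j • x = ε • x := by
  rw [LinearMap.mem_ker, Mg_apply, sub_eq_zero]

variable (hB : HF B) (hF : Nat.card F = q ^ 2) (hn : finrank F V = 3)

include hn in
theorem inv_eig {j : SUG B} (hj : j * j = 1) :
    ∃ ε : F, (ε = 1 ∨ ε = -1) ∧ 2 ≤ finrank F (LinearMap.ker (Mg j ε)) := by
  have h1 := (Mg j 1).finrank_range_add_finrank_ker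
  have h2 : LinearMap.range (Mg j 1) ≤ LinearMap.ker (Mg j (-1)) := by
    rintro _ ⟨x, rfl⟩
    rw [mem_Mg, Mg_apply, one_smul, smul_sub, ← mul_smul, hj, one_smul, neg_one_smul, neg_sub]
  have h3 := Submodule.finrank_mono h2
  by_cases h : 2 ≤ finrank F (LinearMap.ker (Mg j 1))
  · exact ⟨1, Or.inl rfl, h⟩
  · exact ⟨-1, Or.inr rfl, by omega⟩

include hB hF hn in
theorem no_fix {l : ℕ} (hl : l.Coprime (q * ((q + 1) * (q ^ 2 - 1)))) {g : SUG B} (hg : g ^ l = 1) {v : V}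
    (hv : v ≠ 0) {c : F} (h : g • v = c • v) : g = 1 := by
  have hc : c ≠ 0 := left_ne_zero_of_smul (h ▸ g_ne g hv)
  have h1 : c ^ l = 1 := smul_left_injective F hv (by
    simp only
    rw [← pow_smul_eig h, hg, one_smul, one_smul])
  have h2 : c ^ (q ^ 2 - 1) = 1 := by
    rw [← hF, ← Nat.card_units]; exact congrArg Units.val (pow_card_eq_one' (x := Units.mk0 c hc))
  rw [(pow_eq_one_iff_of_coprime hl.coprime_mul_left_right.coprime_mul_left_right).1 ⟨h1, h2⟩, one_smul] at h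
  by_cases h0 : B v v = 0
  · exact (pow_eq_one_iff_of_coprime (hl.coprime_mul_right_right.pow_right 3)).1 ⟨hg, pow_of_fix hB hF hn hv h0 h⟩
  obtain ⟨φ, -, h3, -⟩ := hB.exists_fix_hom (span_inf_perp h0)
  obtain ⟨k, hk⟩ := (h3 g.1).2 fun w hw => by
    obtain ⟨a, rfl⟩ := Submodule.mem_span_singleton.1 hw
    exact (smul_comm g a v).trans (by rw [h])
  have h4 := (hB.res_perp_singleton h0).card_UG' hF
  rw [show finrank F (perp B (Submodule.span F {v})) = 2 by have := hB.finrank_perp_singleton hv; omega] at h4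
  refine (pow_eq_one_iff_of_coprime hl).1 ⟨hg, Subtype.ext ?_⟩
  rw [show q * ((q + 1) * (q ^ 2 - 1)) = ordU q 2 by simp [ordU, Finset.prod_range_succ], ← h4,
    Subgroup.coe_pow, ← hk, ← map_pow, pow_card_eq_one', map_one, Subgroup.coe_one]

include hB hn in
theorem not_scalar {j : SUG B} (hj : j ≠ 1) {ε : F} (h : ε = 1 ∨ ε = -1) : ∃ x, Mg j ε x ≠ 0 := by
  by_contra! h1
  simp only [Mg_apply, sub_eq_zero] at h1
  refine hj (g_ext fun x => ?_)
  rcases h with rfl | rfl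
  · rw [h1, one_smul, one_smul]
  obtain ⟨u, w, f, a1, a2, a3, a4, a5, a6⟩ := hB.exists_frame_three hn.ge
  let r : Fr B := ⟨u, w, f, a1, a2, a3, a4, a5, a6⟩
  have := smul_left_injective F r.w_ne ((h1 r.w).symm.trans (r.eig_w hB hn (h1 _) (h1 _)).1)
  rw [h1, this]; simp

include hB hF hn in
theorem inv_norm {l : ℕ} (hl : l.Coprime (q * ((q + 1) * (q ^ 2 - 1)))) {g j : SUG B} (hg : g ^ l = 1)
    (hj : j * j = 1) (hj1 : j ≠ 1) (h : j * g * j⁻¹ ∈ Subgroup.zpowers g) : g = 1 := by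
  obtain ⟨ε, h1, h2⟩ := inv_eig hn hj
  obtain ⟨δ, -, h4⟩ := inv_eig hn (j := g * j * g⁻¹) (by rw [conj_mul, hj]; simp)
  have h5 := Submodule.finrank_sup_add_finrank_inf_eq (LinearMap.ker (Mg j ε)) (LinearMap.ker (Mg (g * j * g⁻¹) δ))
  have h6 := Submodule.finrank_le (LinearMap.ker (Mg j ε) ⊔ LinearMap.ker (Mg (g * j * g⁻¹) δ))
  obtain ⟨v, hv, v0⟩ := Submodule.exists_mem_ne_zero_of_ne_bot
    (p := LinearMap.ker (Mg j ε) ⊓ LinearMap.ker (Mg (g * j * g⁻¹) δ)) (by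
      intro e; rw [e, finrank_bot] at h5; omega)
  have h7 : j * g * j⁻¹ * g⁻¹ = 1 := no_fix hB hF hn hl (by
    obtain ⟨n, hn⟩ := mul_mem h (inv_mem (Subgroup.mem_zpowers g))
    rw [← hn, ← zpow_natCast, ← zpow_mul, mul_comm, zpow_mul, zpow_natCast, hg, one_zpow]) v0 (c := δ * ε) (by
      rw [inv_eq_of_mul_eq_one_right hj, mul_assoc, mul_assoc, mul_smul, ← mul_assoc, mem_Mg.1 hv.2, smul_comm,
        mem_Mg.1 hv.1, smul_smul])
  obtain ⟨x, hx⟩ := not_scalar hB hn hj1 h1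
  have h8 := (Mg j ε).finrank_range_add_finrank_ker
  obtain ⟨c, hc⟩ := (finrank_eq_one_iff_of_nonzero' (⟨_, x, rfl⟩ : LinearMap.range (Mg j ε))
    fun e => hx (congrArg Subtype.val e)).1 (le_antisymm (by omega) (Submodule.one_le_finrank_iff.2 fun e =>
      hx ((Submodule.eq_bot_iff _).1 e _ ⟨x, rfl⟩))) ⟨_, g • x, rfl⟩
  refine no_fix hB hF hn hl hg hx (c := c) (Eq.trans ?_ (congrArg Subtype.val hc).symm)
  change _ = Mg j ε (g • x)
  rw [Mg_apply, Mg_apply, smul_sub, smul_comm g ε, ← mul_smul g, ← mul_smul j,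
    show j * g = g * j by rw [← mul_inv_eq_iff_eq_mul, ← mul_inv_eq_one, h7]]

include hB hF hn in
theorem sylow_odd {H : Subgroup (SUG B)} {l m : ℕ} [hp : Fact l.Prime]
    (hl : l.Coprime (q * ((q + 1) * (q ^ 2 - 1)))) (hH : Nat.card H = l * m) (hm : ¬ l ∣ m) (S : Sylow l H) :
    Nat.card S = l ∧ ∃ n ∈ m.divisors, n % l = 1 ∧ Odd (l * m / n) ∧
      Nat.card (Subgroup.normalizer (S : Set H)) = l * m / n := by
  have m0 : m ≠ 0 := by rintro rfl; exact hm (dvd_zero _)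
  have h1 : Nat.card S = l := by
    rw [S.card_eq_multiplicity, hH, Nat.factorization_mul hp.out.ne_zero m0]
    simp [hp.out.factorization_self, Nat.factorization_eq_zero_of_not_dvd hm]
  have h2 := S.1.card_mul_index
  rw [h1, hH] at h2
  have h3 := (Subgroup.normalizer (S : Set H)).card_mul_index
  rw [← S.card_eq_index_normalizer, hH] at h3
  have h4 : Nat.card (Subgroup.normalizer (S : Set H)) = l * m / Nat.card (Sylow l H) := by
    rw [← h3, Nat.mul_div_cancel _ Nat.card_pos]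
  refine ⟨h1, _, Nat.mem_divisors.2 ⟨Nat.eq_of_mul_eq_mul_left hp.out.pos h2 ▸ S.card_dvd_index, m0⟩,
    Eq.trans (card_sylow_modEq_one l H) (Nat.mod_eq_of_lt hp.out.one_lt), ?_, h4⟩
  rw [← h4, Inv.odd_card_iff]
  intro t ht h5
  obtain ⟨g, hg⟩ := exists_prime_orderOf_dvd_card' (G := S) l h1.symm.dvd
  have h6 : Subgroup.zpowers g.1 = S := Subgroup.eq_of_le_of_card_ge (Subgroup.zpowers_le.2 g.2)
    (by rw [Nat.card_zpowers, Subgroup.orderOf_coe, hg, h1])
  obtain ⟨n, h7⟩ := h6.ge ((Subgroup.mem_normalizer_iff.1 ht g.1).1 g.2)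
  have := inv_norm hB hF hn hl (g := g.1.1) (j := t.1)
    (congrArg (fun x : S => x.1.1) (hg ▸ pow_orderOf_eq_one g))
    (congrArg Subtype.val (Inv.mul_self_of_two h5)) (fun e => by
      rw [show t = 1 from Subtype.ext e, orderOf_one] at h5; omega) ⟨n, congrArg Subtype.val h7⟩
  rw [show g = 1 from Subtype.ext (Subtype.ext this), orderOf_one] at hg
  exact hp.out.one_lt.ne hg

include hB hF hn in
theorem no_card {H : Subgroup (SUG B)} (l m : ℕ) (hp : l.Prime)
    (hl : l.Coprime (q * ((q + 1) * (q ^ 2 - 1)))) (hH : Nat.card H = l * m) (hm : ¬ l ∣ m)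
    (h : ∀ n ∈ m.divisors, n % l = 1 → Even (l * m / n)) : False := by
  haveI := Fact.mk hp
  obtain ⟨-, n, h1, h2, h3, -⟩ := sylow_odd hB hF hn hl hH hm default
  exact Nat.not_even_iff_odd.2 h3 (h n h1 h2)

theorem burn {H : Type*} [Group H] [Finite H] {l : ℕ} [hp : Fact l.Prime] (S : Sylow l H) (h0 : Nat.card S = l)
    {Z : Subgroup H} (hZ : Z ≤ Subgroup.center H) (h1 : l.Coprime (Nat.card Z))
    (h4 : Nat.card (Subgroup.normalizer (S : Set H)) = l * Nat.card Z) :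
    ∃ K : Subgroup H, Nat.card K * l = Nat.card H ∧ ∀ g, g ^ l ∈ K := by
  haveI := isCyclic_of_prime_card h0
  haveI : IsMulCommutative S := IsCyclic.isMulCommutative
  have hP : Subgroup.normalizer (S : Set H) ≤ Subgroup.centralizer (S : Set H) :=
    (Subgroup.eq_of_le_of_card_ge (Subgroup.centralizer_le_normalizer _) (h4.trans_le (Nat.le_of_dvd Nat.card_pos
      (h1.mul_dvd_of_dvd_of_dvd (h0.symm.dvd.trans (Subgroup.card_dvd_of_le S.1.le_centralizer))
        (Subgroup.card_dvd_of_le (hZ.trans (Subgroup.center_le_centralizer _))))))).ge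
  have hc := MonoidHom.ker_transferSylow_isComplement' S hP
  refine ⟨_, h0 ▸ hc.card_mul_card, fun g => ?_⟩
  have := (MonoidHom.transferSylow S hP).ker.pow_index_mem g
  rwa [hc.symm.index_eq_card, h0] at this

theorem no_eleven (hF : Nat.card F = 11 ^ 2) (hB : HF B) (hn : finrank F V = 3) {H : Subgroup (SUG B)}
    (hZ : Subgroup.center _ ≤ H) (hH : Nat.card H = 37 * 11880)
    (h : ∀ x : V, x ≠ 0 → B x x = 0 → ∃ g ∈ H, g ≠ 1 ∧ g • x = x) : False := by
  haveI : Fact (Nat.Prime 37) := ⟨by norm_num⟩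
  obtain ⟨S⟩ : Nonempty (Sylow 37 H) := inferInstance
  obtain ⟨h0, n, h1, h2, h3, h4⟩ := sylow_odd hB hF hn (by norm_num) hH (by norm_num) S
  rw [(by decide +kernel : ∀ n ∈ Nat.divisors 11880, n % 37 = 1 → Odd (37 * 11880 / n) → 37 * 11880 / n = 37 * 3)
    n h1 h2 h3] at h4
  have h5 : Nat.card ((Subgroup.center (SUG B)).subgroupOf H) = 3 := by
    rw [Nat.card_congr (Subgroup.subgroupOfEquivOfLe hZ).toEquiv, hB.card_center_SUG hF (by omega), hn]; rfl
  obtain ⟨K, h7, h8⟩ := burn S h0 (Z := (Subgroup.center (SUG B)).subgroupOf H) (fun z hz =>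
    Subgroup.mem_center_iff.2 fun s => Subtype.ext (Subgroup.mem_center_iff.1 hz s.1)) (by rw [h5]; norm_num)
    (by rw [h4, h5])
  obtain ⟨u, w, f, a1, a2, a3, a4, a5, a6⟩ := hB.exists_frame_three hn.ge
  have h9 := (Fr.card_tr hB hF hn ⟨u, w, f, a1, a2, a3, a4, a5, a6⟩ (tr_of_fix hB hF hn
    (H := K.map H.subtype) fun x x0 hx => by
      obtain ⟨g, hg, g1, g2⟩ := h x x0 hx
      refine ⟨g ^ 37, Subgroup.mem_map.2 ⟨_, h8 ⟨g, hg⟩, H.coe_pow _ _⟩, fun e => g1 ?_, ?_⟩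
      · exact (pow_eq_one_iff_of_coprime (m := 37) (n := 11 ^ 3) (by norm_num)).1 ⟨e, pow_of_fix hB hF hn x0 hx g2⟩
      · rw [pow_smul_eig (c := (1 : F)) (by rwa [one_smul]) 37, one_pow, one_smul])).1
  rw [Subgroup.card_map_of_injective H.subtype_injective] at h9
  rw [hH, h9] at h7
  omega

end Cfsg.Agent.Gl23.U3
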