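import Mathlib
import Cfsg.Agent.Gl23.UD

/-!
The centraliser of an involution in a subgroup of `SU₃(q)` transitive on the isotropic points.
-/

set_option autoImplicit false
set_option linter.unusedSectionVars false

namespace Cfsg.Agent.Gl23.U3

open Module Cfsg.Agent.Herm MulAction Matrix Cfsg.Agent.Classical Cfsg.Agent.Classical.P1
open scoped MatrixGroups

section PG
variable {F : Type*} [Field F] [Finite F] {p : ℕ} [hp : Fact p.Prime] [CharP F p] (K : Subgroup PGL(2, F))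

theorem pg_card : Nat.card K = (orbit K (inf : PL F)).ncard * Nat.card (stabilizer K (inf : PL F)) := by
  rw [← index_stabilizer, Subgroup.index_mul_card]

theorem pg_cyc (D : Subgroup K) (hD : IsCyclic D) (h2 : D.index ≤ 2) :
    Nat.card (stabilizer K (inf : PL F)) ≤ 2 ∨ (orbit K (inf : PL F)).ncard ≤ 4 := by
  by_cases h : D.subgroupOf (stabilizer K (inf : PL F)) = ⊥
  · left
    rw [← Subgroup.index_bot, ← h]
    exact (Subgroup.relIndex_le_of_le_right le_top (by simpa using D.index_ne_zero_of_finite)).trans (by simpa)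
  right
  obtain ⟨⟨⟨g, g1⟩, g2⟩, g3⟩ := Subgroup.ne_bot_iff_exists_ne_one.1 h
  have g4 : g.1 ≠ 1 := fun e => g3 (Subtype.ext (Subtype.ext (Subtype.ext e)))
  have h3 : (orbit D (inf : PL F)).ncard ≤ 2 := by
    by_contra! h3
    obtain ⟨x, hx, y, hy, z, hz, a1, a2, a3⟩ := (Set.two_lt_ncard (Set.toFinite _)).1 h3
    have key : ∀ x ∈ orbit D (inf : PL F), g.1 • x = x := by
      rintro _ ⟨d, rfl⟩
      have : g * d.1 = d.1 * g := congrArg Subtype.val (hD.commGroup.mul_comm ⟨g, g2⟩ d)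
      change g • d.1 • (inf : PL F) = d.1 • inf
      rw [← mul_smul, this, mul_smul, show g • (inf : PL F) = inf from g1]
    exact g4 (fix_three g.1 x y z (key x hx) (key y hy) (key z hz) a1 a2 a3)
  rw [← index_stabilizer] at h3 ⊢
  have h4 := Subgroup.relIndex_mul_index (inf_le_right : stabilizer K (inf : PL F) ⊓ D ≤ D)
  rw [Subgroup.inf_relIndex_right] at h4
  exact (Nat.le_of_dvd (Nat.pos_of_ne_zero Subgroup.index_ne_zero_of_finite)
    (Subgroup.index_dvd_of_le (inf_le_left (b := D)))).trans (h4.ge.trans (Nat.mul_le_mul h3 h2))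

theorem card_A5 : Nat.card (alternatingGroup (Fin 5)) = 60 := by rw [nat_card_alternatingGroup]; simp; rfl

theorem pg_tame (h : ¬ p ∣ Nat.card K) : Nat.card (stabilizer K (inf : PL F)) ≤ 2 ∨
    (orbit K (inf : PL F)).ncard ≤ 4 ∨ Nat.card K = 12 ∨ Nat.card K = 24 ∨ Nat.card K = 60 := by
  rcases Dickson.dickson_tame K h with h | ⟨D, h1, h2, -⟩ | ⟨⟨e⟩⟩ | ⟨⟨e⟩⟩ | ⟨⟨e⟩⟩
  · exact (pg_cyc K ⊤ inferInstance (by simp)).imp_right Or.inl
  · exact (pg_cyc K D h1 h2.le).imp_right Or.inl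
  · rw [Nat.card_congr e.toEquiv, nat_card_alternatingGroup]; simp [Nat.factorial]
  · rw [Nat.card_congr e.toEquiv, Nat.card_perm]; simp [Nat.factorial]
  · rw [Nat.card_congr e.toEquiv, card_A5]; simp

theorem pg_wild (h : p ∣ Nat.card (stabilizer K (inf : PL F))) (h2 : p ≠ 2) (h1 : (orbit K (inf : PL F)).ncard ≠ 1) :
    (p = 3 ∧ Nat.card K = 60) ∨ ∃ c, 0 < c ∧ p ^ c ∣ Nat.card K ∧ Nat.card K ∣ p ^ c * ((p ^ c) ^ 2 - 1) := by
  rcases Dickson.dickson_wild K (h.trans (Subgroup.card_subgroup_dvd_card _)) with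
    ⟨x, hx⟩ | ⟨h, -⟩ | ⟨h, ⟨e⟩⟩ | ⟨L, c, h3, h4, h5⟩
  · obtain ⟨g, hg⟩ := exists_prime_orderOf_dvd_card' p h
    refine absurd ?_ h1
    obtain rfl : x = inf := by
      by_contra h3
      have := P1Inst.unip_fix g.1.1 (congrArg (fun x : stabilizer K (inf : PL F) => x.1.1)
        (hg ▸ pow_orderOf_eq_one g)) x inf (hx _ g.1.2) g.2 h3
      rw [show g = 1 from Subtype.ext (Subtype.ext this), orderOf_one] at hg
      exact hp.out.one_lt.ne hg
    rw [← index_stabilizer, Subgroup.index_eq_one, eq_top_iff]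
    exact fun g _ => hx _ g.2
  · exact absurd h h2
  · exact Or.inl ⟨h, (Nat.card_congr e.toEquiv).trans card_A5⟩
  · obtain ⟨S⟩ : Nonempty (Sylow p K) := inferInstance
    obtain ⟨n, hn⟩ := IsPGroup.iff_card.1 S.2
    have h6 := (h4 S).trans hn
    refine Or.inr ⟨n, Nat.pos_of_ne_zero (by rintro rfl; rw [pow_zero] at h6; omega), hn ▸ Subgroup.card_subgroup_dvd_card _, ?_⟩
    rw [← h6, ← P1Ident.card_PGL_two, Nat.card_congr (P1Ident.subPGLEquiv L).toEquiv,
      Nat.card_congr (Dickson.conjEquiv K (ProjGenLinGroup.mk c)).toEquiv]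
    exact Subgroup.card_dvd_of_le (h5.elim le_of_eq fun e => e.le.trans (P1Ident.subPSL_le_subPGL L))

end PG

variable {F V : Type*} [Field F] [AddCommGroup V] [Module F V] [FiniteDimensional F V]
  {σ : F →+* F} {B : V →ₛₗ[σ] V →ₗ[F] F} [Finite F] {q : ℕ}
  (hB : HF B) (hF : Nat.card F = q ^ 2) (hn : finrank F V = 3) {H : Subgroup (SUG B)}

include hF in
theorem two_ne (hq : Odd q) : (2 : F) ≠ 0 := by
  obtain ⟨p, k, hp, hc, rfl⟩ := exists_char_pow hF
  intro h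
  obtain rfl := (Nat.prime_dvd_prime_iff_eq hp Nat.prime_two).1 ((CharP.cast_eq_zero_iff F p 2).1 (by simpa))
  have := two_le_of_card hF
  exact Nat.not_even_iff_odd.2 hq (Nat.even_pow.2 ⟨even_two, by rintro rfl; omega⟩)

include hB hF hn in
theorem exists_inv (hq : Odd q) (h : Tr H) : ∃ (r : Fr B) (i : SUG B), i ∈ H ∧ i * i = 1 ∧
    i • r.u = (-1 : F) • r.u ∧ i • r.f = (-1 : F) • r.f := by
  obtain ⟨u, w, f, a1, a2, a3, a4, a5, a6⟩ := hB.exists_frame_three hn.ge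
  obtain ⟨j, hj, h1⟩ := Inv.exists_two_mem_of_even (H := H) (by
    rw [(Fr.card_tr hB hF hn ⟨u, w, f, a1, a2, a3, a4, a5, a6⟩ h).1]; exact hq.pow.add_one.mul_right _)
  have h2 := Inv.mul_self_of_two h1
  obtain ⟨ε, h3, h4⟩ := inv_eig hn h2
  haveI : Finite V := Module.finite_of_finite F
  obtain ⟨x, hx, x0, x1⟩ := MinI.exists_iso_mem hB hF (LinearMap.ker (Mg j ε)).toAddSubgroup (by
    change _ < Nat.card (LinearMap.ker (Mg j ε))
    rw [Module.natCard_eq_pow_finrank (K := F), hF]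
    exact lt_of_lt_of_le (by have := two_le_of_card hF; nlinarith [Nat.pow_le_pow_left this 2])
      (Nat.pow_le_pow_right (by have := two_le_of_card hF; positivity) h4))
  replace hx := mem_Mg.1 hx
  rcases h3 with rfl | rfl
  · rw [(pow_eq_one_iff_of_coprime (a := j) (Nat.coprime_two_left.2 hq.pow)).1
      ⟨(sq j).trans h2, pow_of_fix hB hF hn x0 x1 (by simpa using hx)⟩, orderOf_one] at h1
    omega
  obtain ⟨y, hy⟩ := hB.exists_b_eq x0 1
  have h5 : B x (y - j • y) = 2 := by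
    have := b_smul j x (j • y)
    rw [hx, ← mul_smul, h2, one_smul, b_smul_left, hy] at this
    rw [map_sub, hy, ← this]; simp; norm_num
  obtain ⟨a, ha⟩ := hB.exists_iso_sub x1 (h5.trans_ne (two_ne hF hq))
  obtain ⟨r, rfl, e⟩ := exists_fr' hB hn x1 ha (by simpa [x1, h5, -map_sub, map_sub (B x) (y - j • y)] using two_ne hF hq)
  refine ⟨r, j, hj, h2, hx, ?_⟩
  rw [e, smul_comm j, smul_sub j, smul_sub j, ← mul_smul j, h2, smul_comm j, hx, one_smul (SUG B)]
  generalize j • y = y'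
  module

variable (r : Fr B)

include hB hF hn in
theorem exists_cent (hq : Odd q) {i : SUG B} (hi : i ∈ H) (i2 : i * i = 1) (iu : i • r.u = (-1 : F) • r.u)
    (i3 : i • r.f = (-1 : F) • r.f) {h : SUG B} (hh : h ∈ H) (h1 : i • h • r.u = (-1 : F) • h • r.u) :
    ∃ g ∈ H ⊓ St B r.w, g • r.u = h • r.u := by
  have h2 : (h⁻¹ * i * h * i) • r.u = r.u := by
    rw [mul_smul, iu, smul_comm, mul_smul, mul_smul, h1, smul_comm h⁻¹, inv_smul_smul]; simp
  obtain ⟨d, hd, h3⟩ := Inv.exists_conj_of_odd (x := h⁻¹ * i * h) (by simp [mul_assoc, ← mul_assoc i i, i2]) i2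
    (Odd.of_dvd_nat hq.pow (orderOf_dvd_of_pow_eq_one (pow_of_fix hB hF hn r.u_ne r.uu h2)))
  have h4 : d ∈ H := Subgroup.zpowers_le.2 (mul_mem (mul_mem (mul_mem (inv_mem hh) hi) hh) hi) hd
  have h5 : d⁻¹ • r.u = r.u := inv_mem ((Subgroup.zpowers_le (H := stabilizer _ r.u)).2 h2 hd)
  refine ⟨h * d⁻¹, ⟨H.mul_mem hh (H.inv_mem h4), (mem_St r.w_ne).2 ⟨B r.w ((h * d⁻¹) • r.w), ?_⟩⟩, by rw [mul_smul, h5]⟩
  have h6 : i • (h * d⁻¹) • r.w = (h * d⁻¹) • r.w := by
    rw [← mul_smul, show i * (h * d⁻¹) = h * d⁻¹ * i by conv_rhs => rw [← h3]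
                                                        group, mul_smul, (r.eig_w hB hn iu i3).1]
    simp
  have h7 := b_smul i r.u ((h * d⁻¹) • r.w)
  have h8 := b_smul i r.f ((h * d⁻¹) • r.w)
  rw [h6, iu] at h7
  rw [h6, i3] at h8
  have key : ∀ t : F, σ (-1) * t = t → t = 0 := fun t ht => mul_left_cancel₀ (two_ne hF hq) (by
    rw [map_neg, map_one] at ht; linear_combination -ht)
  have := r.dec hB hn ((h * d⁻¹) • r.w)
  rwa [key _ ((b_smul_left _ _ _ _).symm.trans h7), key _ ((b_smul_left _ _ _ _).symm.trans h8), zero_smul, zero_smul,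
    zero_add, add_zero] at this

include hB hn in
theorem St_w (g : St B r.w) {x : V} (hx : B r.w x = 0) :
    g.1 • x = B r.f (g.1 • x) • r.u + B r.u (g.1 • x) • r.f := by
  obtain ⟨c, hc⟩ := (mem_St r.w_ne).1 g.2
  have h1 := b_smul g.1 r.w x
  rw [hc, b_smul_left, hx, mul_eq_zero, map_eq_zero] at h1
  simpa [h1.resolve_left (left_ne_zero_of_smul (hc ▸ g_ne g.1 r.w_ne))] using r.dec hB hn (g.1 • x)

/-- the action on the plane -/
noncomputable def phi : St B r.w →* GL (Fin 2) F := MonoidHom.toHomUnits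
  { toFun := fun g => !![B r.f (g.1 • r.u), B r.f (g.1 • r.f); B r.u (g.1 • r.u), B r.u (g.1 • r.f)]
    map_one' := by simp [r.rel hB, Matrix.one_fin_two]
    map_mul' := fun g k => by
      rw [Subgroup.coe_mul, mul_smul, mul_smul, St_w hB hn r k (hB.zero_symm r.uw), St_w hB hn r k (hB.zero_symm r.fw)]
      simp only [smul_add, smul_comm g.1, map_add, map_smul, smul_eq_mul, Matrix.mul_fin_two, r.rel hB]
      ext i j; fin_cases i <;> fin_cases j <;> simp <;> ring }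

theorem phi_00 (g : St B r.w) : phi hB hn r g 0 0 = B r.f (g.1 • r.u) := rfl
theorem phi_01 (g : St B r.w) : phi hB hn r g 0 1 = B r.f (g.1 • r.f) := rfl
theorem phi_10 (g : St B r.w) : phi hB hn r g 1 0 = B r.u (g.1 • r.u) := rfl
theorem phi_11 (g : St B r.w) : phi hB hn r g 1 1 = B r.u (g.1 • r.f) := rfl

include hF hn in
theorem odd_data (hq : Odd q) (h : Tr H) {i : SUG B} (hi : i ∈ H) (i2 : i * i = 1) (iu : i • r.u = (-1 : F) • r.u)
    (i3 : i • r.f = (-1 : F) • r.f) : ∃ (K : Subgroup PGL(2, F)) (κ : ℕ), (orbit K (inf : PL F)).ncard = q + 1 ∧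
      Nat.card (stabilizer K (inf : PL F)) * κ = Nat.card (Rg (H.comap (r.hs hB))) * Nat.card (Tg H r.u) ∧
      κ ∣ Nat.card (Tg H r.u ⊓ (nrm σ).ker : Subgroup Fˣ) := by
  let ψ := ProjGenLinGroup.mk.comp (phi hB hn r)
  have hs : ∀ g : St B r.w, ψ g • (inf : PL F) = inf ↔ g.1 ∈ St B r.u := fun g => by
    rw [MonoidHom.comp_apply, mk_smul, smul_inf_eq_inf_iff, phi_10, mem_St r.u_ne]
    exact ⟨r.iso_perp hB hn ((b_smul _ _ _).trans r.uu), by rintro ⟨c, hc⟩; simp [hc, r.uu]⟩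
  refine ⟨(H.subgroupOf (St B r.w)).map ψ, Nat.card ((H ⊓ St B r.u).subgroupOf (St B r.w) ⊓ ψ.ker : Subgroup _),
    ?_, ?_, ?_⟩
  · rw [← card_skS hF hB.toInv, show Nat.card (skS σ) = (skS σ : Set F).ncard from rfl,
      ← Set.ncard_image_of_injective (skS σ : Set F) pt_injective, ← Set.ncard_insert_of_notMem (a := inf) (by simp)]
    congr 1
    ext x
    constructor
    · rintro ⟨⟨_, g, hg, rfl⟩, rfl⟩
      rcases inf_or_pt (ψ g • (inf : PL F)) with e | ⟨z, e⟩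
      · exact Or.inl e
      refine Or.inr ⟨z, ?_, e.symm⟩
      have e1 := (smul_inf_eq_pt_iff _ _).1 ((mk_smul _ _).symm.trans e)
      have e2 := (b_smul g.1 _ _).trans r.uu
      have e3 : B r.u (g.1 • r.u) ≠ 0 := fun e3 => pt_ne_inf z (e.symm.trans ((smul_inf_eq_inf_iff _).2 e3))
      rw [phi_00, phi_10] at e1
      rw [St_w hB hn r g (hB.zero_symm r.uw), e1, hB.norm_plane r.uu r.ff r.uf, map_mul] at e2
      exact mul_left_cancel₀ (mul_ne_zero e3 ((map_ne_zero σ).2 e3)) (by linear_combination e2)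
    · rintro (rfl | ⟨z, hz, rfl⟩)
      · exact mem_orbit_self _
      have e1 := hB.norm_plane r.uu r.ff r.uf z 1
      obtain ⟨k, hk, c, e⟩ := h r.u (z • r.u + (1 : F) • r.f) r.u_ne r.uu
        (ne_zero_of_b' (B := B) (x := r.u) (by simp [r.rel hB]))
        (e1.trans (by simpa [add_comm] using (show z + σ z = 0 from hz)))
      obtain ⟨g, hg, e2⟩ := exists_cent hB hF hn r hq hi i2 iu i3 hk (by
        rw [e, smul_comm i, smul_add, smul_comm i, smul_comm i, iu, i3]; module)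
      exact ⟨⟨_, ⟨g, hg.2⟩, hg.1, rfl⟩, (mk_smul _ _).trans ((smul_inf_eq_pt_iff _ _).2 (by
        simp [phi_00, phi_10, e2, e, r.rel hB, mul_comm]))⟩
  · have h1 := card_inf_ker ψ ((H ⊓ St B r.u).subgroupOf (St B r.w))
    have h2 := r.card_Hu hB hn (H ⊓ St B r.w)
    have h3 : Ag ((H ⊓ St B r.w).comap (r.hs hB)) = ⊥ := eq_bot_iff.2 (by
      rintro _ ⟨x, hx, rfl⟩
      obtain ⟨c, hc⟩ := (mem_St r.w_ne).1 hx.2
      simpa [Fr.hs_w, r.rel hB] using congrArg (B r.f) hc)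
    have h4 : Rg ((H ⊓ St B r.w).comap (r.hs hB)) = Rg (H.comap (r.hs hB)) := by
      ext l
      exact ⟨fun ⟨x, hx, e⟩ => ⟨x, hx.1, e⟩, fun ⟨x, hx, e⟩ =>
        ⟨x, ⟨hx, (mem_St r.w_ne).2 ⟨1, by simp [Fr.hs_w, e.1]⟩⟩, e⟩⟩
    have h5 : Tg (H ⊓ St B r.w) r.u = Tg H r.u := by
      ext a
      refine ⟨fun ⟨g, hg, e⟩ => ⟨g, hg.1, e⟩, fun ⟨g, hg, e⟩ => ?_⟩
      obtain ⟨k, hk, e2⟩ := exists_cent hB hF hn r hq hi i2 iu i3 hg (by rw [e, smul_comm i, iu, smul_comm])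
      exact ⟨k, hk, e2.trans e⟩
    rw [card_P, h3, h4, h5, AddSubgroup.card_bot, one_mul, inf_right_comm,
      ← Nat.card_congr (Subgroup.subgroupOfEquivOfLe (inf_le_right (b := St B r.w))).toEquiv,
      Subgroup.inf_subgroupOf_right, ← h1] at h2
    rw [← h2, ← Subgroup.card_map_of_injective (Subgroup.subtype_injective _)]
    congr 3
    ext x
    constructor
    · rintro ⟨⟨_, g, hg, rfl⟩, e, rfl⟩
      exact ⟨g, ⟨hg, (hs g).1 e⟩, rfl⟩
    · rintro ⟨g, hg, rfl⟩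
      exact ⟨⟨_, g, hg.1, rfl⟩, (hs g).2 hg.2, rfl⟩
  · have key : ∀ g : St B r.w, ψ g = 1 → g.1 • r.u = B r.f (g.1 • r.u) • r.u ∧ g.1 • r.f = B r.f (g.1 • r.u) • r.f :=
      fun g hg => by
        obtain ⟨e1, e2, e3⟩ := mk_eq_one_iff.1 hg
        rw [phi_01] at e1; rw [phi_10] at e2; rw [phi_00, phi_11] at e3
        exact ⟨by simpa [e2] using St_w hB hn r g (hB.zero_symm r.uw),
          by simpa [e1, e3] using St_w hB hn r g (hB.zero_symm r.fw)⟩
    refine Subgroup.card_dvd_of_injective (MonoidHom.mk' (fun g => ⟨r.al hB ⟨g.1.1, g.2.1.2⟩,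
      ⟨g.1.1, g.2.1.1, r.al_spec hB ⟨g.1.1, g.2.1.2⟩⟩, Units.ext ?_⟩) fun g k => Subtype.ext
        (map_mul (r.al hB) ⟨g.1.1, g.2.1.2⟩ ⟨k.1.1, k.2.1.2⟩)) fun g k e => Subtype.ext (Subtype.ext ?_)
    · obtain ⟨e1, e2⟩ := key g.1 g.2.2
      have e3 := (r.eig_w hB hn e1 e2).2
      change σ (B r.f (g.1.1 • r.u)) * B r.f (g.1.1 • r.u) = 1
      rw [mul_comm]
      exact (mul_eq_one_iff_eq_inv₀ ((map_ne_zero σ).2 (left_ne_zero_of_smul (e1 ▸ g_ne _ r.u_ne)))).2 e3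
    · have e0 : B r.f (g.1.1 • r.u) = B r.f (k.1.1 • r.u) := congrArg (fun a => (a.1 : F)) e
      obtain ⟨e1, e2⟩ := key g.1 g.2.2
      obtain ⟨e3, e4⟩ := key k.1 k.2.2
      rw [← inv_mul_eq_one]
      exact r.fix2 hB hn (c := 1) (by rw [mul_smul, inv_smul_eq_iff, e1, e3, e0])
        (by rw [mul_smul, inv_smul_eq_iff, one_smul, e2, e4, e0])

end Cfsg.Agent.Gl23.U3
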