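import Mathlib
import Cfsg.Agent.Gl23.UE

/-!
Subgroups of small index in `SU₃(q)`, `q` odd.
-/

set_option autoImplicit false
set_option linter.unusedSectionVars false

namespace Cfsg.Agent.Gl23.U3

open Module Cfsg.Agent.Herm MulAction Cfsg.Agent.Classical.P1

theorem not_dvd_pow {p k c : ℕ} (hp : 2 ≤ p) (h0 : 0 < c) (h : c < k) : ¬ p ^ k + 1 ∣ (p ^ c) ^ 2 - 1 := by
  intro h1
  rw [← pow_mul] at h1
  have h2 : 1 < p ^ (c * 2) := Nat.one_lt_pow (by omega) hp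
  by_cases h3 : c * 2 ≤ k
  · have := Nat.le_of_dvd (by omega) h1
    have := Nat.pow_le_pow_right (show 0 < p by omega) h3
    omega
  obtain ⟨e, he⟩ : ∃ e, c * 2 = e + k := ⟨c * 2 - k, by omega⟩
  have h4 : p ^ e * (p ^ k + 1) = p ^ (c * 2) - 1 + (p ^ e + 1) := by rw [mul_add, ← pow_add, ← he]; omega
  have := Nat.le_of_dvd (by omega) ((Nat.dvd_add_right h1).1 (h4 ▸ dvd_mul_left _ _))
  have := Nat.pow_lt_pow_right hp (show e < k by omega)
  omega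

theorem ar_nine {k ρ m : ℕ} (h : (3 ^ k + 1) * m = 60) (h1 : ρ ∣ 3 ^ k) (h2 : ρ < 3 ^ k) (h3 : ρ ≠ 1) :
    3 ^ k = 9 ∧ ρ = 3 ∧ m = 6 := by
  obtain ⟨a, -, rfl⟩ := (Nat.dvd_prime_pow Nat.prime_three).1 h1
  have h4 := (Nat.pow_lt_pow_iff_right (by norm_num)).1 h2
  have h5 : a ≠ 0 := by rintro rfl; simp at h3
  have h6 : k < 4 := (Nat.pow_lt_pow_iff_right (a := 3) (by norm_num)).1 (by
    have := Nat.le_of_dvd (by norm_num) (Dvd.intro _ h); omega)
  interval_cases k <;> interval_cases a <;> omega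

theorem ar_bot {q t m κ : ℕ} (hq : 3 ≤ q) (h5 : q ≠ 5) (ho : Odd q) (h1 : q ^ 2 - 1 ≤ t) (h2 : m * κ = t)
    (h3 : κ ≤ q + 1) (h : m ≤ 2 ∨ q + 1 ≤ 4 ∨ (q + 1) * m = 12 ∨ (q + 1) * m = 24 ∨ (q + 1) * m = 60) : q = 3 := by
  have h4 : q - 1 ≤ m := Nat.le_of_mul_le_mul_left (show (q + 1) * (q - 1) ≤ (q + 1) * m by
    rw [← Nat.sq_sub_sq, one_pow, mul_comm]; exact h1.trans (h2 ▸ Nat.mul_le_mul_left _ h3)) q.succ_pos
  obtain ⟨n, rfl⟩ := ho
  have h6 : m ≤ 2 ∨ n ≤ 3 := by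
    rcases h with h | h | h | h | h
    exacts [Or.inl h, Or.inr (by omega), Or.inr (by nlinarith [show 2 * n ≤ m from h4]),
      Or.inr (by nlinarith [show 2 * n ≤ m from h4]), Or.inr (by nlinarith [show 2 * n ≤ m from h4])]
  have h7 : n ≤ 3 := by omega
  interval_cases n <;> omega

theorem ar_one {q t m κ a : ℕ} (hq : 3 ≤ q) (h5 : q ≠ 5) (ho : Odd q) (h1 : q ^ 2 - 1 ≤ a * t) (ha : a ≤ q)
    (h2 : m * κ = t) (h3 : κ ≤ 6) (h4 : t ∣ 3 * (q - 1)) (h6 : t ∣ q ^ 2 - 1) (h7 : 2 ∣ t) (h8 : a ∣ q ^ 2)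
    (h : m ≤ 2 ∨ q + 1 ≤ 4 ∨ (q + 1) * m = 12 ∨ (q + 1) * m = 24 ∨ (q + 1) * m = 60) : q = 11 ∧ a * t = 330 := by
  have h9 : q ≤ t := by
    by_contra h9
    have : a * t ≤ q * (q - 1) := Nat.mul_le_mul ha (by omega)
    obtain ⟨n, rfl⟩ : ∃ n, q = n + 1 := ⟨q - 1, by omega⟩
    simp only [Nat.add_sub_cancel] at this
    have : (n + 1) ^ 2 = (n + 1) * n + n + 1 := by ring
    omega
  have h10 : q ≤ m * 6 := h9.trans (h2 ▸ Nat.mul_le_mul_left _ h3)
  have h11 : q ≤ 18 := by rcases h with h | h | h | h | h <;> nlinarith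
  have h12 : t ≤ 3 * (q - 1) := Nat.le_of_dvd (by omega) h4
  have h13 : t ≤ m * 6 := h2 ▸ Nat.mul_le_mul_left _ h3
  obtain ⟨n, rfl⟩ := ho
  have h14 : n ≤ 8 := by omega
  interval_cases n <;> simp only [Nat.reduceMul, Nat.reduceAdd, Nat.reducePow, Nat.reduceSub] at * <;>
    interval_cases t <;> try omega
  all_goals interval_cases a <;> first | omega | simp

variable {F V : Type*} [Field F] [AddCommGroup V] [Module F V] [FiniteDimensional F V]
  {σ : F →+* F} {B : V →ₛₗ[σ] V →ₗ[F] F} [Finite F] {q : ℕ}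
  (hB : HF B) (hF : Nat.card F = q ^ 2) (hn : finrank F V = 3) {H : Subgroup (SUG B)}

include hF hn in
theorem Fr.big (r : Fr B) (hH : H.index ≤ q ^ 3) : q ^ 2 - 1 ≤ Nat.card (Ag (H.comap (r.hs hB))) *
    Nat.card (Rg (H.comap (r.hs hB))) * Nat.card (Tg H r.u) := by
  have h1 := (r.card_tr hB hF hn (tr_of_index hB hF hn hH)).2
  have h2 := two_le_of_card hF
  rw [← card_P]
  exact Nat.le_of_mul_le_mul_left (h1.trans_le ((Nat.mul_le_mul_left _ hH).trans (mul_comm _ _).le)) (by positivity)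

include hn in
theorem Fr.all_fix (r : Fr B) (h : Tr H) (hP : Nat.card (H.comap (r.hs hB)) ≠ 1) (x : V) (x0 : x ≠ 0)
    (hx : B x x = 0) : ∃ g ∈ H, g ≠ 1 ∧ g • x = x := by
  obtain ⟨⟨y, hy⟩, y1⟩ := Subgroup.ne_bot_iff_exists_ne_one.1 (mt Subgroup.card_eq_one.2 hP)
  obtain ⟨k, hk, c, e⟩ := h x r.u x0 hx r.u_ne r.uu
  refine ⟨k⁻¹ * r.hs hB y * k, mul_mem (mul_mem (inv_mem hk) hy) hk, fun e => y1 (Subtype.ext (r.hs_inj hB ?_)), ?_⟩
  · simpa [mul_assoc, inv_mul_eq_one] using e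
  · rw [mul_smul, mul_smul, e, smul_comm (r.hs hB y), Fr.hs_u, ← e, inv_smul_smul]

include hB hF hn in
theorem odd_case (hq : Odd q) (h3 : 3 ≤ q) (h5 : q ≠ 5) (hZ : Subgroup.center _ ≤ H) (hH : H ≠ ⊤)
    (hi : H.index ≤ q ^ 3) : False := by
  have h := tr_of_index hB hF hn hi
  obtain ⟨r, i, i1, i2, i3, i4⟩ := exists_inv hB hF hn hq h
  obtain ⟨K, κ, k1, k2, k3⟩ := odd_data hB hF hn r hq h i1 i2 i3 i4
  obtain ⟨p, k, hp, hc, hk⟩ := exists_char_pow hF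
  haveI := Fact.mk hp
  obtain ⟨t, ht, ht'⟩ := R_ne hB hF hn r (by omega) h hH
  obtain ⟨r1, r2⟩ := R_card hB hF r ht ht'
  have a1 := A_le _ hF ht ht'
  have a2 : Nat.card (Ag (H.comap (r.hs hB))) ∣ q ^ 2 := hF ▸ AddSubgroup.card_addSubgroup_dvd_card _
  have b1 := r.big hB hF hn hi
  have b2 := (r.card_tr hB hF hn h).1
  have b3 := pg_card K
  have b4 := T_dvd hF (Tg H r.u)
  have b6 : κ ∣ q + 1 := k3.trans (card_dvd_succ hB hF fun a ha => congrArg Units.val ha.2)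
  have b5 := Nat.le_of_dvd q.succ_pos b6
  have hpq : p ∣ q := hk ▸ dvd_pow_self p (by rintro rfl; rw [pow_zero] at hk; omega)
  have c1 : ¬ p ∣ q + 1 := fun e => hp.one_lt.ne' (Nat.dvd_one.1 ((Nat.dvd_add_right hpq).1 e))
  have c2 : ¬ p ∣ Nat.card (Tg H r.u) := fun e =>
    Classical.GLBasic.not_dvd_pow_sub_one hp hpq (by omega) two_ne_zero (e.trans b4)
  rw [card_P] at b2
  rw [k1] at b3
  by_cases hR : Nat.card (Rg (H.comap (r.hs hB))) = 1
  · rw [hR, one_mul] at k2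
    rw [hR, mul_one] at b1 b2
    have h1 := pg_tame (p := p) K (by
      rw [b3, hp.dvd_mul]; exact fun e => e.elim c1 fun e => c2 (e.trans (Dvd.intro _ k2)))
    rw [k1, b3] at h1
    by_cases hA : Ag (H.comap (r.hs hB)) = ⊥
    · rw [hA, AddSubgroup.card_bot, one_mul] at b1 b2
      obtain rfl := ar_bot h3 h5 hq b1 k2 b5 h1
      have := Nat.le_of_dvd (by norm_num) b4
      exact no_card hB hF hn 7 32 (by norm_num) (by norm_num) (by rw [b2, le_antisymm this b1]; norm_num) (by norm_num)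
        (by decide +kernel)
    obtain ⟨d1, d2⟩ := R_bot hB hF hn r (AddSubgroup.card_eq_one.1 hR) hA
    obtain ⟨rfl, e⟩ := ar_one h3 h5 hq b1 a1 k2 (Nat.le_of_dvd (by norm_num) (k3.trans (card_dvd_of_pow fun a ha =>
      d2 a ha.1 (congrArg Units.val ha.2)))) d1 b4 (by
        have : orderOf (-1 : Fˣ) = 2 := orderOf_eq_prime (by simp) fun e => two_ne hF hq (by
          have := congrArg Units.val e; simp only [Units.val_neg, Units.val_one] at this; linear_combination -this)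
        exact this ▸ Subgroup.orderOf_dvd_natCard _ ⟨i, i1, by simpa using i3⟩) a2 h1
    exact no_eleven hF hB hn hZ (by rw [b2, e]; norm_num) (r.all_fix hB hn h (by
      rw [card_P, hR, mul_one]; exact mt AddSubgroup.card_eq_one.1 hA))
  obtain ⟨a, -, ha⟩ := (Nat.dvd_prime_pow hp).1 (hk ▸ r1)
  have e1 : p ∣ Nat.card (stabilizer K (inf : PL F)) := ((Nat.Prime.dvd_mul hp).1 (k2 ▸ Dvd.dvd.mul_right
    (ha ▸ dvd_pow_self p (by rintro rfl; exact hR ha)) _)).resolve_right fun e => c1 (e.trans b6)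
  rcases pg_wild K e1 (by rintro rfl; exact Nat.not_even_iff_odd.2 hq (even_iff_two_dvd.2 hpq)) (by omega) with
    ⟨rfl, e⟩ | ⟨c, e2, e3, e4⟩
  · obtain ⟨e2, e3, e4⟩ := ar_nine (hk ▸ b3.symm.trans e) (hk ▸ r1) (hk ▸ r2) hR
    obtain rfl : q = 9 := hk.trans e2
    obtain ⟨t', d, t1, t2, t3, t4, -⟩ := T_data hB hF hn r (H := H)
    obtain rfl : d = 1 := Nat.dvd_one.1 (Nat.dvd_gcd t2 t3)
    rw [e3] at b1 b2
    rw [e3, e4] at k2
    rw [mul_one] at t1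
    rw [← t1] at t4
    generalize Nat.card (Ag (H.comap (r.hs hB))) = α at *
    generalize Nat.card (Tg H r.u) = τ at *
    have h6 : τ ≤ 20 := by omega
    have h7 : α = 9 ∧ (τ = 4 ∨ τ = 8) := by
      clear t1 k2 b4 c2
      interval_cases α <;> interval_cases τ <;> omega
    rcases h7 with ⟨rfl, rfl | rfl⟩
    · exact no_card hB hF hn 73 1080 (by norm_num) (by norm_num) b2 (by norm_num) (by decide +kernel)
    · exact no_card hB hF hn 73 2160 (by norm_num) (by norm_num) b2 (by norm_num) (by decide +kernel)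
  · have e5 := ((Nat.Prime.coprime_iff_not_dvd hp).2 c1).pow_left c
    rw [b3] at e3 e4
    have e6 := (((Nat.Prime.coprime_iff_not_dvd hp).2 c2).pow_left c).dvd_of_dvd_mul_right
      (k2 ▸ (e5.dvd_of_dvd_mul_left e3).mul_right κ)
    refine not_dvd_pow hp.two_le e2 ((Nat.pow_lt_pow_iff_right hp.one_lt).1
      (hk ▸ (Nat.le_of_dvd Nat.card_pos e6).trans_lt r2)) (hk ▸ e5.symm.dvd_of_dvd_mul_left ((Dvd.intro _ rfl).trans e4))

end Cfsg.Agent.Gl23.U3
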