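import Mathlib
import Cfsg.Agent.Gl23.UF
import Cfsg.Agent.Gl23.U35b

/-!
Subgroups of small index in `SU₃(q)`, `q` even; the minimal index of `PSU₃(q)`.
-/

set_option autoImplicit false
set_option linter.unusedSectionVars false

namespace Cfsg.Agent.Gl23.U3

open Module Cfsg.Agent.Herm MulAction

theorem dvd_of_sub_one {a k : ℕ} (h : 2 ^ a - 1 ∣ 2 ^ k - 1) : a ∣ k := by
  have h1 := Nat.pow_sub_one_gcd_pow_sub_one 2 a k
  rw [Nat.gcd_eq_left h] at h1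
  have := Nat.one_le_two_pow (n := a)
  have := Nat.one_le_two_pow (n := a.gcd k)
  exact Nat.pow_right_injective le_rfl (show 2 ^ a = 2 ^ a.gcd k by omega) ▸ Nat.gcd_dvd_right a k

theorem ar_even {k a b t t0 t' d : ℕ} (h0 : 0 < a) (h1 : a < k) (h2 : 2 ^ a - 1 ∣ 2 ^ k - 1)
    (h3 : t = (2 ^ a - 1) * t0) (h4 : t0 ∣ 2 ^ k + 1) (h5 : t = t' * d) (h6 : d ∣ 3) (h7 : d ∣ 2 ^ k + 1)
    (h8 : t' ∣ 2 ^ b - 1) (h9 : 2 ^ a - 1 ∣ t') (h10 : 2 ^ b ≤ (2 ^ a) ^ 2) (h11 : t ∣ (2 ^ k) ^ 2 - 1)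
    (h : (2 ^ k) ^ 2 - 1 ≤ 2 ^ b * 2 ^ a * t) : 2 ^ k = 8 ∧ 2 ^ b * 2 ^ a * t = 72 := by
  obtain ⟨m, rfl⟩ := dvd_of_sub_one h2
  have hm : 2 ≤ m := by by_contra hm; interval_cases m <;> omega
  have hb := dvd_of_sub_one (h9.trans h8)
  rw [pow_mul] at *
  have hρ : 2 ≤ 2 ^ a := Nat.one_lt_two_pow h0.ne'
  obtain ⟨ρ, e⟩ : ∃ ρ, 2 ^ a = ρ + 1 := ⟨2 ^ a - 1, by omega⟩
  have hq : (2 ^ a) ^ 2 ≤ (2 ^ a) ^ m := Nat.pow_le_pow_right (by omega) hm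
  have key : ∀ x y : ℕ, x ^ 2 - 1 ≤ y → x ^ 2 ≤ y + 1 := fun x y h => by omega
  replace h := key _ _ h
  rcases Nat.eq_zero_or_pos b with rfl | b0
  · have := Nat.le_of_dvd (Nat.succ_pos _) h4
    rw [e, Nat.add_sub_cancel] at h3
    rw [pow_zero, one_mul] at h
    generalize (2 ^ a) ^ m = Q at *
    rw [e] at h hq hρ
    have h12 : (ρ + 1) * t ≤ (ρ + 1) * ρ * (Q + 1) := by rw [h3, mul_assoc]; gcongr
    have h13 : ((ρ + 1) * ρ + 2) * (Q + 1) ≤ Q * (Q + 1) := Nat.mul_le_mul_right _ (by nlinarith)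
    nlinarith
  have hb1 : 2 ≤ 2 ^ b := Nat.one_lt_two_pow b0.ne'
  have ht := Nat.le_of_dvd (by omega) h8
  have hd := Nat.le_of_dvd (by norm_num) h6
  rcases hm.eq_or_lt with rfl | hm
  · obtain rfl : d = 1 := ((Nat.dvd_prime Nat.prime_three).1 h6).resolve_right (by
      rintro rfl
      have : ∀ x : ℕ, (x ^ 2 + 1) % 3 ≠ 0 := fun x => by
        rcases (by omega : x % 3 = 0 ∨ x % 3 = 1 ∨ x % 3 = 2) with h | h | h <;> simp [Nat.add_mod, Nat.pow_mod, h]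
      exact this _ (Nat.mod_eq_zero_of_dvd h7))
    have e1 : b ∣ a * 2 := by
      obtain ⟨c, rfl⟩ := hb
      rw [← pow_mul, Nat.pow_le_pow_iff_right (by norm_num)] at h10
      have := Nat.le_of_mul_le_mul_left h10 h0
      interval_cases c <;> simp at b0 ⊢
    have e2 : t0 ∣ (2 ^ a) ^ 2 - 1 := (Dvd.intro_left _ (h3.symm.trans (h5.trans (mul_one _)))).trans
      (h8.trans (pow_mul 2 a 2 ▸ Nat.pow_sub_one_dvd_pow_sub_one 2 e1))
    have e3 : t0 ∣ 2 := by simpa [show (2 ^ a) ^ 2 + 1 - ((2 ^ a) ^ 2 - 1) = 2 by omega] using Nat.dvd_sub h4 e2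
    obtain rfl : t0 = 1 := ((Nat.dvd_prime Nat.prime_two).1 e3).resolve_right (by
      rintro rfl
      have : 2 ∣ (2 ^ a) ^ 2 := dvd_pow (dvd_pow_self 2 h0.ne') two_ne_zero
      omega)
    have : 2 ^ b * 2 ^ a * t ≤ (2 ^ a) ^ 2 * 2 ^ a * (2 ^ a - 1) := by rw [h3, mul_one]; gcongr
    replace this := h.trans (Nat.succ_le_succ this)
    rw [e] at this hρ
    simp only [Nat.add_sub_cancel] at this
    nlinarith [Nat.zero_le (ρ ^ 3), Nat.zero_le (ρ ^ 2)]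
  have e1 : (2 ^ a) ^ 3 ≤ (2 ^ a) ^ m := Nat.pow_le_pow_right (by omega) hm
  have e2 : 2 ^ b * 2 ^ a * t ≤ (2 ^ a) ^ 2 * 2 ^ a * (((2 ^ a) ^ 2 - 1) * 3) := by rw [h5]; gcongr; omega
  have e3 := (Nat.pow_le_pow_left e1 2).trans (h.trans (Nat.succ_le_succ e2))
  obtain rfl : a = 1 := by
    by_contra e4
    have : 2 ^ 2 ≤ 2 ^ a := Nat.pow_le_pow_right (by norm_num) (by omega)
    generalize 2 ^ a = x at *
    have e5 : x ^ 2 * x * ((x ^ 2 - 1) * 3) ≤ x ^ 2 * x * (x ^ 2 * 3) := by gcongr; omega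
    have e6 : 4 * x ^ 5 ≤ x * x ^ 5 := Nat.mul_le_mul_right _ this
    have e7 : 2 ≤ x ^ 5 := Nat.one_lt_pow (by norm_num) hρ
    nlinarith
  norm_num at h e2 h10 h11 ⊢
  obtain rfl : m = 3 := by
    by_contra e4
    have : 2 ^ 4 ≤ 2 ^ m := Nat.pow_le_pow_right (by norm_num) (by omega)
    nlinarith
  have : t ≤ 9 := by rw [h5]; nlinarith [show t' ≤ 3 by omega]
  generalize 2 ^ b = x at *
  interval_cases x <;> interval_cases t <;> omega

variable {F V : Type*} [Field F] [AddCommGroup V] [Module F V] [FiniteDimensional F V]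
  {σ : F →+* F} {B : V →ₛₗ[σ] V →ₗ[F] F} [Finite F] {q : ℕ}
  (hB : HF B) (hF : Nat.card F = q ^ 2) (hn : finrank F V = 3) {H : Subgroup (SUG B)} [CharP F 2]

theorem eq_one_of_sq {a : F} (h : a * a = 1) : a = 1 :=
  Classical.P1.eq_one_of_pow_char (p := 2) ((sq a).trans h)

include hB hF hn in
theorem even_bot (hq : q ≠ 2) (r : Fr B) (h : Tr H) (ho : Odd (Nat.card H)) (hT : Tg H r.u = ⊤)
    (hP : ∀ g ∈ H, g • r.u = r.u → g = 1) : False := by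
  obtain ⟨b, b1, b0, b2⟩ := hB.toInv.exists_fix_ne hF hq
  have b3 : b * b ≠ 1 := mt eq_one_of_sq b2
  obtain ⟨g, hg, e⟩ : Units.mk0 b b0 ∈ Tg H r.u := hT ▸ Subgroup.mem_top _
  rw [Units.val_mk0] at e
  obtain ⟨d, d1, d2, d3⟩ := r.exists_D hB b0
  obtain ⟨z, hz⟩ := r.bor hB hn e d1
  obtain ⟨v, v1, v2⟩ : ∃ v : V, B r.u v = 1 ∧ g • v = b⁻¹ • v := by
    obtain ⟨β, hβ⟩ : ∃ β, (b - 1) * β = z.a := ⟨_, mul_div_cancel₀ _ (sub_ne_zero.2 b2)⟩
    obtain ⟨γ, hγ⟩ : ∃ γ, (b * b - 1) * γ = z.l - b * β * σ z.a := ⟨_, mul_div_cancel₀ _ (sub_ne_zero.2 b3)⟩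
    refine ⟨r.f + β • r.w + γ • r.u, by simp [r.rel hB], ?_⟩
    simp only [hz, mul_smul, smul_add, smul_comm d, d1, d2, d3, smul_comm (r.hs hB z), Fr.hs_u, Fr.hs_w, Fr.hs_f, b1]
    match_scalars <;> field_simp
    · linear_combination hγ
    · linear_combination hβ
  have v3 : B v v = 0 := by
    have := b_smul g v v
    rw [v2, b_smul_left, b_smul_right, map_inv₀, b1] at this
    field_simp at this
    exact (mul_eq_zero.1 (show (b * b - 1) * B v v = 0 by linear_combination -this)).resolve_left (sub_ne_zero.2 b3)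
  obtain ⟨k, hk, c, e1⟩ := h r.u v r.u_ne r.uu (ne_zero_of_b' (v1.trans_ne one_ne_zero)) v3
  have e2 : g * (k⁻¹ * g * k) = 1 := hP _ (mul_mem hg (mul_mem (mul_mem (inv_mem hk) hg) hk)) (by
    rw [mul_smul, mul_smul, mul_smul, e1, smul_comm g c, v2, smul_comm c, ← e1, smul_comm k⁻¹ b⁻¹, inv_smul_smul,
      smul_comm g b⁻¹, e, inv_smul_smul₀ b0])
  obtain ⟨n, e3⟩ := Odd.of_dvd_nat ho (H.orderOf_dvd_natCard hk)
  have e4 : k⁻¹ * g * k = g⁻¹ := eq_inv_of_mul_eq_one_right e2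
  have e5 : Commute g (k * k) := by
    have : k⁻¹ * g⁻¹ * k = g := by rw [show k⁻¹ * g⁻¹ * k = (k⁻¹ * g * k)⁻¹ by group, e4, inv_inv]
    rw [Commute, SemiconjBy, ← inv_mul_eq_iff_eq_mul]
    calc (k * k)⁻¹ * (g * (k * k)) = k⁻¹ * (k⁻¹ * g * k) * k := by group
      _ = g := by rw [e4, this]
  have e6 := e5.pow_right (n + 1)
  rw [← sq, ← pow_mul, mul_add, mul_one, ← Nat.add_assoc _ 1 1, ← e3, pow_succ, pow_orderOf_eq_one, one_mul] at e6
  rw [mul_assoc, e6.eq, inv_mul_cancel_left] at e4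
  have e7 := pow_smul_eig e 2
  rw [sq, mul_eq_one_iff_eq_inv.2 e4, sq] at e7
  exact b3 (smul_left_injective F r.u_ne (e7.symm.trans (by simp)))

variable (r : Fr B)

theorem sq_mem {h : Inv σ} {P : Subgroup (Heis h)} {a : F} (ha : a ∈ Ag P) : σ a * a ∈ Rg P := by
  obtain ⟨x, hx, rfl⟩ := ha
  exact ⟨x * x, mul_mem hx hx, Heis.sq_a x, Heis.sq_l x⟩

theorem A_le_sq {h : Inv σ} (P : Subgroup (Heis h)) : Nat.card (Ag P) ≤ Nat.card (Rg P) ^ 2 := by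
  by_contra! h1
  letI : Module (ZMod 2) (Ag P) := AddCommGroup.zmodModule fun a => Subtype.ext (by simp [CharTwo.two_eq_zero])
  letI : Module (ZMod 2) (Rg P) := AddCommGroup.zmodModule fun a => Subtype.ext (by simp [CharTwo.two_eq_zero])
  letI : Module (ZMod 2) F := AddCommGroup.zmodModule fun a => by simp [CharTwo.two_eq_zero]
  obtain ⟨π, hπ⟩ := ((Rg P).subtype.toZModLinearMap 2).exists_leftInverse_of_injective
    (LinearMap.ker_eq_bot.2 Subtype.val_injective)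
  obtain ⟨a, a0, ha⟩ := MinI.exists_biadd_zero 2 (AddMonoidHom.mk' (fun a : Ag P => AddMonoidHom.mk'
    (fun b : Ag P => π (σ a * b)) fun _ _ => by simp [mul_add]) fun _ _ => AddMonoidHom.ext fun _ => by
      simp [add_mul]) h1
  have := LinearMap.congr_fun hπ ⟨_, sq_mem a.2⟩
  exact a0 (Subtype.ext (by simpa using congrArg Subtype.val (this.symm.trans ha)))

include hn in
theorem R_trans (h : Tr H) {l l' : F} (hl : l ∈ Rg (H.comap (r.hs hB))) (l0 : l ≠ 0)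
    (hl' : l' ∈ Rg (H.comap (r.hs hB))) (l1 : l' ≠ 0) : ∃ a ∈ Tg H r.u, σ a * a * l = l' := by
  obtain ⟨x, hx, x0, rfl⟩ := hl
  obtain ⟨y, hy, y0, rfl⟩ := hl'
  have ne : ∀ y : Heis hB.toInv, y.l ≠ 0 → r.hs hB y ≠ 1 := fun y h e =>
    h (congrArg Heis.l (r.hs_inj hB (e.trans (map_one _).symm)))
  have s2 : ∀ y : Heis hB.toInv, y.a = 0 → r.hs hB y * r.hs hB y = 1 := fun y h => by
    rw [← map_mul, (Heis.mul_self_eq_one_iff y).2 h, map_one]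
  obtain ⟨k, hk, c, e⟩ := h r.u r.f r.u_ne r.uu r.f_ne r.ff
  have c0 : c ≠ 0 := left_ne_zero_of_smul (e ▸ g_ne k r.u_ne)
  have k1 : (k * r.hs hB x * k⁻¹) • r.f = r.f := smul_right_injective V c0 (by
    simp only
    rw [← smul_comm, ← e, mul_smul, inv_smul_smul, mul_smul, Fr.hs_u])
  have key : ∀ y : Heis hB.toInv, r.hs hB y ∈ H → y.a = 0 → y.l ≠ 0 →
      ∃ d ∈ H, d * r.hs hB y * d⁻¹ = k * r.hs hB x * k⁻¹ := fun y hy y0 y1 => by
    rcases Inv.isConj_or_exists_central (s2 y y0) (y := k * r.hs hB x * k⁻¹) (by rw [conj_mul, s2 x x0]; simp) with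
      ⟨d, hd, e⟩ | ⟨z, -, z2, z3, z4⟩
    · exact ⟨d, Subgroup.zpowers_le.2 (mul_mem hy (mul_mem (mul_mem hk hx) (inv_mem hk))) hd, e⟩
    obtain ⟨d, hd⟩ := perp_of_fix hB hn (ne y y1) r.u_ne r.uu ((b_smul z _ _).trans r.uu) (r.hs_u hB y) (c := 1)
      (by rw [← mul_smul, ← z3.eq, mul_smul, Fr.hs_u, one_smul])
    obtain ⟨d', hd'⟩ := perp_of_fix hB hn (g := k * r.hs hB x * k⁻¹) (by simpa using ne x l0) r.f_ne r.ff
      ((b_smul z _ _).trans r.ff) k1 (c := 1) (by rw [← mul_smul, ← z4.eq, mul_smul, k1, one_smul])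
    have e7 := pow_smul_eig hd 2
    rw [Inv.sq_of_two z2, sq] at e7
    rw [eq_one_of_sq (smul_left_injective F r.u_ne (e7.symm.trans (by simp)) : d * d = 1), one_smul] at hd
    exact absurd (r.fix2 hB hn hd hd') (Inv.ne_one_of_two z2)
  obtain ⟨d, d1, d2⟩ := key x hx x0 l0
  obtain ⟨d', d3, d4⟩ := key y hy y0 l1
  have e1 : d'⁻¹ * d * r.hs hB x * (d'⁻¹ * d)⁻¹ = r.hs hB y := by
    rw [← mul_left_cancel_iff (a := d'), ← mul_right_cancel_iff (a := d'⁻¹), d4, ← d2]; group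
  obtain ⟨a, ha⟩ := perp_of_fix hB hn (ne y l1) r.u_ne r.uu ((b_smul (d'⁻¹ * d) _ _).trans r.uu) (r.hs_u hB y) (c := 1)
    (by rw [← e1, mul_smul, inv_smul_smul, mul_smul, Fr.hs_u, one_smul])
  obtain ⟨z, z1, -, z2⟩ := r.conj_hs hB hn ha x
  refine ⟨Units.mk0 a (left_ne_zero_of_smul (ha ▸ g_ne _ r.u_ne)), ⟨_, mul_mem (inv_mem d3) d1, ha⟩, ?_⟩
  rw [r.hs_inj hB (e1.symm.trans z1), z2 x0, Units.val_mk0]

include hn in
theorem card_nrm (h : Tr H) (hR : Rg (H.comap (r.hs hB)) ≠ ⊥) :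
    Nat.card ((Tg H r.u).map (nrm σ)) = Nat.card (Rg (H.comap (r.hs hB))) - 1 := by
  obtain ⟨⟨l, hl⟩, l0⟩ := AddSubgroup.ne_bot_iff_exists_ne_zero.1 hR
  have l0 : l ≠ 0 := fun e => l0 (Subtype.ext e)
  refine le_antisymm (Nat.le_of_dvd (Nat.sub_pos_of_lt ((AddSubgroup.one_lt_card_iff_ne_bot _).2 hR))
    (card_dvd_sub ?_)) (Nat.sub_le_of_le_add ?_)
  · rintro _ ⟨a, ⟨g, hg, e⟩, rfl⟩ _ ⟨x, hx, x0, rfl⟩
    obtain ⟨y, h1, h2, h3⟩ := r.conj_hs hB hn e x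
    exact ⟨y, show r.hs hB y ∈ H from h1 ▸ mul_mem (mul_mem hg hx) (inv_mem hg), by rw [h2, x0, mul_zero], h3 x0⟩
  · rw [← Finite.card_option]
    refine Nat.card_le_card_of_surjective (fun o => o.elim 0 fun s => ⟨s.1 * l, ?_⟩) fun m => ?_
    · obtain ⟨_, a, ⟨g, hg, e⟩, rfl⟩ := s
      obtain ⟨x, hx, x0, rfl⟩ := hl
      obtain ⟨y, h1, h2, h3⟩ := r.conj_hs hB hn e x
      exact ⟨y, show r.hs hB y ∈ H from h1 ▸ mul_mem (mul_mem hg hx) (inv_mem hg), by rw [h2, x0, mul_zero], h3 x0⟩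
    · by_cases m0 : m.1 = 0
      · exact ⟨none, Subtype.ext m0.symm⟩
      obtain ⟨a, ha, e⟩ := R_trans hB hn r h hl l0 m.2 m0
      exact ⟨some ⟨_, a, ha, rfl⟩, Subtype.ext e⟩

include hB hF hn in
theorem even_case {k : ℕ} (hk : q = 2 ^ k) (h3 : 3 ≤ q) (hH : H ≠ ⊤) (hi : H.index ≤ q ^ 3) : False := by
  have h := tr_of_index hB hF hn hi
  obtain ⟨u, w, f, a1, a2, a3, a4, a5, a6⟩ := hB.exists_frame_three hn.ge
  let r : Fr B := ⟨u, w, f, a1, a2, a3, a4, a5, a6⟩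
  obtain ⟨t, ht, ht'⟩ := R_ne hB hF hn r (by omega) h hH
  obtain ⟨r1, r2⟩ := R_card hB hF r ht ht'
  have a2 : Nat.card (Ag (H.comap (r.hs hB))) ∣ q ^ 2 := hF ▸ AddSubgroup.card_addSubgroup_dvd_card _
  have a3 := A_le_sq (H.comap (r.hs hB))
  have b1 := r.big hB hF hn hi
  have b2 := (r.card_tr hB hF hn h).1
  have b4 := T_dvd hF (Tg H r.u)
  have he : Even q := hk ▸ Nat.even_pow.2 ⟨even_two, by rintro rfl; omega⟩
  by_cases hR : Rg (H.comap (r.hs hB)) = ⊥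
  · rw [hR, AddSubgroup.card_bot, one_pow] at a3
    have a4 := le_antisymm a3 Nat.card_pos
    have b5 := card_P (H.comap (r.hs hB))
    rw [a4, hR, AddSubgroup.card_bot] at b1 b5
    have b6 := le_antisymm (Nat.le_of_dvd (sq_pos' hF) b4) (by simpa using b1)
    refine even_bot hB hF hn (by omega) r h ?_ (Subgroup.eq_top_of_card_eq _ (by rw [b6, Nat.card_units, hF]))
      fun g hg e => ?_
    · rw [b2, b5, b6, one_mul, one_mul]
      exact ((Nat.even_pow.2 ⟨he, by norm_num⟩).add_one).mul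
        (Nat.Even.sub_odd (Nat.one_le_pow _ _ (by omega)) (Nat.even_pow.2 ⟨he, by norm_num⟩) odd_one)
    · obtain ⟨x, rfl⟩ := r.exists_hs hB hn e
      rw [show x = 1 from (Subgroup.card_eq_one.1 b5).le hg, map_one]
  have c1 := card_nrm hB hn r h hR
  obtain ⟨t', d, t1, t2, t3, t4, t5⟩ := T_data hB hF hn r (H := H)
  have c2 := card_inf_ker (nrm σ) (Tg H r.u)
  have c3 : Nat.card (Tg H r.u ⊓ (nrm σ).ker : Subgroup Fˣ) ∣ q + 1 :=
    card_dvd_succ hB hF fun a ha => congrArg Units.val ha.2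
  have c4 : Nat.card ((Tg H r.u).map (nrm σ)) ∣ q - 1 := card_dvd_of_pow (by
    rintro _ ⟨a, -, rfl⟩
    have := hB.toInv.apply_pow hF (nrm σ a)
    rw [nrm_val, map_mul, hB.invol, mul_comm, ← nrm_val, ← Nat.sub_add_cancel (show 1 ≤ q by omega), pow_succ] at this
    exact (mul_eq_right₀ (nrm σ a).ne_zero).1 this.symm)
  subst hk
  obtain ⟨a, -, ha⟩ := (Nat.dvd_prime_pow Nat.prime_two).1 r1
  obtain ⟨b, -, hb⟩ := (Nat.dvd_prime_pow Nat.prime_two).1 (pow_mul 2 k 2 ▸ a2)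
  rw [card_P] at b2
  rw [c1] at c2 c4 t5
  rw [ha] at r2 a3 b1 b2 c2 c4 t5
  rw [hb] at a3 b1 b2 t4
  obtain ⟨e1, e2⟩ := ar_even (Nat.pos_of_ne_zero (by rintro rfl; exact hR (AddSubgroup.card_eq_one.1 ha)))
    ((Nat.pow_lt_pow_iff_right (by norm_num)).1 r2) c4 c2.symm c3 t1 t2 t3 t4 t5 a3 b4 b1
  rw [e1] at hF b2
  exact no_card hB hF hn 19 1944 (by norm_num) (by norm_num) (by rw [b2, e2]; norm_num) (by norm_num)
    (by decide +kernel)

omit [CharP F 2] in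
theorem main {F : Type*} [Field F] [Fintype F] (q : ℕ) (hF : Fintype.card F = q ^ 2) (hq : 3 ≤ q) (h5 : q ≠ 5) :
    (∀ H : Subgroup (Cfsg.PSU 3 F q), H ≠ ⊤ → q ^ 3 + 1 ≤ H.index) ∧
      (∃ H : Subgroup (Cfsg.PSU 3 F q), H.index = q ^ 3 + 1) := by
  have hF' := natCard_of_card hF
  have hB := hf_sB hF' 3
  have hn : finrank F (Fin 3 → F) = 3 := by simp
  refine ⟨psu_low hF' fun H hZ hH => ?_, ?_⟩
  · by_contra! hi
    obtain ⟨p, k, hp, hc, hk⟩ := exists_char_pow hF'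
    rcases hp.eq_two_or_odd' with rfl | ho
    · exact even_case hB hF' hn hk hq hH (by omega)
    · exact odd_case hB hF' hn (hk ▸ ho.pow) hq h5 hZ hH (by omega)
  · obtain ⟨u, w, f, a1, a2, a3, a4, a5, a6⟩ := hB.exists_frame_three hn.ge
    let r : Fr (sB hF' 3) := ⟨u, w, f, a1, a2, a3, a4, a5, a6⟩
    have h1 := (St (sB hF' 3) r.u).card_mul_index
    rw [r.card_St hB hF' hn, card_G hB hF' hn] at h1
    refine ⟨(St (sB hF' 3) r.u).map ((QuotientGroup.mk' _).comp (toSUG hF' 3).symm.toMonoidHom), ?_⟩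
    rw [Subgroup.index_map_eq (f := (QuotientGroup.mk' _).comp (toSUG hF' 3).symm.toMonoidHom) _
      ((QuotientGroup.mk'_surjective _).comp (toSUG hF' 3).symm.surjective) fun g hg => ?_]
    · exact Nat.eq_of_mul_eq_mul_left (Nat.mul_pos (by positivity) (sq_pos' hF')) h1
    obtain ⟨a, ha⟩ := (hB.mem_center_SUG (by simp) g).1
      ((Classical.SpMat.mem_center_congr (toSUG hF' 3).symm).1 ((QuotientGroup.eq_one_iff _).1 hg))
    exact (mem_St r.u_ne).2 ⟨a.1, by change g.1.1 _ = _; rw [ha]; rfl⟩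

end Cfsg.Agent.Gl23.U3
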